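import Cfsg.Agent.Blocks.CycloDiv
import Cfsg.Agent.Blocks.ContribMatrix

/-!
# Vectors of length one with cyclotomic integer entries
-/

set_option autoImplicit false
set_option linter.unusedSectionVars false
set_option linter.style.haveILetI false

namespace CfsgLib.NilBlock

open Cfsg CfsgLib.Blocks CfsgLib.CharBasics Polynomial
open scoped ComplexConjugate

/-- Character values are cyclotomic integers. -/
theorem exists_apply_poly {H : Type*} [Group H] [Finite H] {θ : H → ℂ} (hθ : IsCharacter H θ) {N : ℕ} (hN : N ≠ 0)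
    {x : H} (ho : orderOf x ∣ N) : ∃ Q : ℤ[X], aeval (zetaRoot N) Q = θ x := by
  obtain ⟨lam, hl, hv⟩ := exists_eigen hθ x
  haveI : NeZero N := ⟨hN⟩
  have hroot : ∀ i, ∃ a < N, zetaRoot N ^ a = lam i := fun i => by
    refine (zetaRoot_prim hN).eq_pow_of_pow_eq_one ?_
    obtain ⟨c, hc⟩ := ho
    rw [hc, pow_mul, hl i, one_pow]
  choose a ha hae using hroot
  refine ⟨∑ i, X ^ a i, ?_⟩
  have h1 : θ x = ∑ i, lam i := by simpa using hv 1
  rw [h1, map_sum]
  exact Finset.sum_congr rfl fun i _ => by rw [map_pow, aeval_X, hae]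

/-- Dividing by the order keeps a cyclotomic integer when it keeps a local integer. -/
theorem exists_poly_div {p : ℕ} {M : Ideal AlgInt} (hM : IsPModular p M) (d : ℕ) (Q : ℤ[X])
    (h : MemLocalRing M (aeval (zetaRoot (p ^ d)) Q / (p : ℂ) ^ d)) :
    ∃ R : ℤ[X], aeval (zetaRoot (p ^ d)) Q / (p : ℂ) ^ d = aeval (zetaRoot (p ^ d)) R := by
  cases d with
  | zero => exact ⟨Q, by simp⟩
  | succ k =>
    obtain ⟨R, hR⟩ := exists_eq_pow_mul hM k (k + 1) Q h
    refine ⟨R, ?_⟩
    have hp0 : (p : ℂ) ≠ 0 := Nat.cast_ne_zero.2 hM.1.ne_zero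
    rw [hR, mul_div_cancel_left₀ _ (pow_ne_zero _ hp0)]

/-- A vector of length one with cyclotomic integer entries has one nonzero entry. -/
theorem single_support {ι : Type*} [Fintype ι] {N : ℕ} (hN : N ≠ 0) (A : ι → ℤ[X])
    (h : ∑ i, aeval (zetaRoot N) (A i) * conj (aeval (zetaRoot N) (A i)) = 1) :
    ∃ i, ‖aeval (zetaRoot N) (A i)‖ = 1 ∧ ∀ j, j ≠ i → aeval (zetaRoot N) (A j) = 0 := by
  classical
  have hz := zetaRoot_prim hN
  have hone : ∀ j, (zetaRoot N ^ j) ^ N = 1 := fun j => by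
    rw [← pow_mul, mul_comm, pow_mul, hz.pow_eq_one, one_pow]
  have hconj : ∀ (j : ℕ) (Q : ℤ[X]), conj (aeval (zetaRoot N ^ j) Q) = aeval (zetaRoot N ^ j) (Q.comp (X ^ (N - 1))) := by
    intro j Q
    rw [conj_aeval, conj_eq_pow hN (hone j), Polynomial.aeval_comp, map_pow, aeval_X]
  have h0 : aeval (zetaRoot N) ((∑ i, A i * (A i).comp (X ^ (N - 1))) - 1) = 0 := by
    rw [map_sub, map_sum, map_one, sub_eq_zero, ← h]
    refine Finset.sum_congr rfl fun i _ => ?_
    rw [map_mul]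
    have := hconj 1 (A i)
    rw [pow_one] at this
    rw [this]
  set T := Finset.univ.filter (fun i => aeval (zetaRoot N) (A i) ≠ 0) with hT
  have hnorm : ∀ j ∈ coprimeResidues N, ∑ i, ‖aeval (zetaRoot N ^ j) (A i)‖ ^ 2 = 1 := by
    intro j hj
    have h1 := aeval_conjugate_eq_zero hN h0 (Finset.mem_filter.1 hj).2
    rw [map_sub, map_sum, map_one, sub_eq_zero] at h1
    simp only [map_mul, ← hconj, Complex.mul_conj'] at h1
    exact_mod_cast h1
  have hsum : ∑ i ∈ T, ∑ j ∈ coprimeResidues N, ‖aeval (zetaRoot N ^ j) (A i)‖ ^ 2 ≤ (coprimeResidues N).card := by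
    rw [Finset.sum_comm]
    refine (Finset.sum_le_sum fun j hj => ?_).trans (le_of_eq (by rw [Finset.sum_const, nsmul_eq_mul, mul_one]))
    rw [← hnorm j hj]
    exact Finset.sum_le_sum_of_subset_of_nonneg (Finset.subset_univ _) fun _ _ _ => by positivity
  have hlow : ∀ i ∈ T, ((coprimeResidues N).card : ℝ) ≤ ∑ j ∈ coprimeResidues N, ‖aeval (zetaRoot N ^ j) (A i)‖ ^ 2 :=
    fun i hi => card_le_sum_conjugates hN (A i) fun j hj =>
      aeval_conjugate_ne_zero hN _ (Finset.mem_filter.1 hj).2 (Finset.mem_filter.1 hi).2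
  have hcard : T.card ≤ 1 := by
    have h2 := (Finset.sum_le_sum hlow).trans hsum
    rw [Finset.sum_const, nsmul_eq_mul] at h2
    have hpos : (0 : ℝ) < (coprimeResidues N).card := Nat.cast_pos.2 (coprimeResidues_card_pos hN)
    exact_mod_cast (mul_le_iff_le_one_left hpos).1 h2
  obtain ⟨i, hi⟩ : ∃ i, aeval (zetaRoot N) (A i) ≠ 0 := by
    by_contra hcon
    push Not at hcon
    simp [hcon] at h
  have hzero : ∀ j, j ≠ i → aeval (zetaRoot N) (A j) = 0 := fun j hji => by
    by_contra hj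
    exact hji (Finset.card_le_one.1 hcard j (by simp [hT, hj]) i (by simp [hT, hi]))
  refine ⟨i, ?_, hzero⟩
  rw [Finset.sum_eq_single i (fun j _ hji => by rw [hzero j hji, zero_mul]) (by simp), Complex.mul_conj'] at h
  have h3 : ‖aeval (zetaRoot N) (A i)‖ ^ 2 = 1 := by exact_mod_cast h
  exact (pow_eq_one_iff_of_nonneg (norm_nonneg _) two_ne_zero).1 h3

end CfsgLib.NilBlock
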