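import Cfsg.Agent.Blocks.NilBlock.Words
import Cfsg.Agent.CharBasics.Ortho
import Cfsg.Agent.BrauerInd.RegularSep

/-!
# Local integrality of averages over a `p`-subgroup
-/

set_option autoImplicit false
set_option linter.unusedSectionVars false
set_option linter.style.haveILetI false

namespace CfsgLib.NilBlock

open Cfsg CfsgLib.Blocks CfsgLib.CharBasics
open scoped ComplexConjugate TensorProduct

/-- The trace of an integral endomorphism times a commuting idempotent is integral. -/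
theorem isIntegral_trace_mul_idem {V : Type*} [AddCommGroup V] [Module ℂ V] [FiniteDimensional ℂ V]
    {T Q : Module.End ℂ V} (hc : Commute T Q) (hQ : Q * Q = Q) (hT : IsIntegral ℤ T) :
    IsIntegral ℤ (LinearMap.trace ℂ V (T * Q)) := by
  obtain ⟨f, hf, hfT⟩ := hT
  have hint : IsIntegral ℤ (T * Q) := by
    refine ⟨f * Polynomial.X, hf.mul Polynomial.monic_X, ?_⟩
    have hpow : ∀ n : ℕ, (T * Q) ^ (n + 1) = T ^ (n + 1) * Q := fun n => by
      rw [hc.mul_pow, IsIdempotentElem.pow_succ_eq n hQ]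
    rw [← Polynomial.aeval_def, Polynomial.aeval_eq_sum_range] at *
    have hX : (Polynomial.aeval (T * Q)) (f * Polynomial.X) = (Polynomial.aeval T f) * (T * Q) := by
      rw [map_mul, Polynomial.aeval_X, Polynomial.aeval_eq_sum_range, Polynomial.aeval_eq_sum_range,
        Finset.sum_mul, Finset.sum_mul]
      refine Finset.sum_congr rfl fun n _ => ?_
      rw [smul_mul_assoc, smul_mul_assoc, ← pow_succ, hpow, ← mul_assoc, ← pow_succ]
    rw [← Polynomial.aeval_eq_sum_range, hX, Polynomial.aeval_eq_sum_range, hfT, zero_mul]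
  rw [Module.End.trace_eq_sum_roots_charpoly_of_splits (IsAlgClosed.splits _)]
  refine IsIntegral.multiset_sum fun μ hμ => ?_
  have hev : Module.End.HasEigenvalue (T * Q) μ :=
    Module.End.hasEigenvalue_iff_isRoot_charpoly _ _ |>.2 (Polynomial.isRoot_of_mem_roots hμ)
  obtain ⟨v, hv⟩ := hev.exists_hasEigenvector
  obtain ⟨g, hg, hgT⟩ := hint
  refine ⟨g, hg, ?_⟩
  have hroot := Module.End.aeval_apply_of_hasEigenvector (p := g.map (algebraMap ℤ ℂ)) hv
  rw [Polynomial.aeval_map_algebraMap] at hroot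
  rw [← Polynomial.aeval_def] at hgT ⊢
  rw [hgT, LinearMap.zero_apply, Polynomial.eval_map, ← Polynomial.aeval_def] at hroot
  exact (smul_eq_zero.1 hroot.symm).resolve_right hv.2

variable {p : ℕ} {M : Ideal AlgInt} {G : Type*} [Group G] [Fintype G]

/-- The average over a subgroup of a character against its orbit sums is integral. -/
theorem isIntegral_avg_orbit (P : Subgroup G) [Fintype P] {ψ : G → ℂ} (hψ : IsCharacter G ψ) {θ : P → ℂ}
    (hθ : IsCharacter P θ) (O : Finset G) (hO : ∀ u ∈ P, ∀ g ∈ O, u * g * u⁻¹ ∈ O) :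
    IsIntegral ℤ ((Nat.card P : ℂ)⁻¹ * ∑ u : P, conj (θ u) * ∑ g ∈ O, ψ ((u : G) * g)) := by
  classical
  obtain ⟨n, ρ, rfl⟩ := hψ
  obtain ⟨l, σ, rfl⟩ := hθ
  -- the orbit sum acting on the first factor
  set R1 : Representation ℂ G ((Fin n → ℂ) ⊗[ℂ] Module.Dual ℂ (Fin l → ℂ)) :=
    Representation.tprod ρ (Representation.trivial ℂ G (Module.Dual ℂ (Fin l → ℂ))) with hR1
  set T : Module.End ℂ ((Fin n → ℂ) ⊗[ℂ] Module.Dual ℂ (Fin l → ℂ)) := ∑ g ∈ O, R1 g with hT
  set τ : Representation ℂ P ((Fin n → ℂ) ⊗[ℂ] Module.Dual ℂ (Fin l → ℂ)) :=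
    Representation.tprod (ρ.comp P.subtype) σ.dual with hτ
  set Q : Module.End ℂ ((Fin n → ℂ) ⊗[ℂ] Module.Dual ℂ (Fin l → ℂ)) := (Nat.card P : ℂ)⁻¹ • ∑ u : P, τ u with hQ
  have hTint : IsIntegral ℤ T := by
    set L := MonoidAlgebra.lift ℤ (Module.End ℂ ((Fin n → ℂ) ⊗[ℂ] Module.Dual ℂ (Fin l → ℂ))) G R1 with hL
    haveI : Module.Finite ℤ (MonoidAlgebra ℤ G) := inferInstance
    have h := (Algebra.IsIntegral.isIntegral (R := ℤ) (∑ g ∈ O, MonoidAlgebra.single g (1 : ℤ))).map L
    rwa [hL, map_sum, Finset.sum_congr rfl fun g _ => MonoidAlgebra.lift_single _ g 1,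
      Finset.sum_congr rfl fun g _ => one_smul ℤ (R1 g)] at h
  have hcomm : ∀ u : P, τ u * T = T * τ u := by
    intro u
    rw [hT, Finset.mul_sum, Finset.sum_mul]
    refine Finset.sum_nbij' (fun g => (u : G) * g * (u : G)⁻¹) (fun g => (u : G)⁻¹ * g * u)
      (fun g hg => hO u u.2 g hg) (fun g hg => by simpa using hO _ (P.inv_mem u.2) g hg)
      (fun g _ => by group) (fun g _ => by group) fun g _ => ?_
    rw [hτ, hR1]
    refine TensorProduct.ext' fun v w => ?_
    simp only [Representation.tprod_apply, Module.End.mul_apply, TensorProduct.map_tmul, MonoidHom.comp_apply,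
      Representation.trivial_apply, LinearMap.id_apply, Subgroup.subtype_apply]
    rw [← Module.End.mul_apply, ← map_mul, ← Module.End.mul_apply, ← map_mul]
    simp [mul_assoc]
  have hPc : (Nat.card P : ℂ) ≠ 0 := Nat.cast_ne_zero.2 Nat.card_pos.ne'
  have hidem : Q * Q = Q := by
    rw [hQ, smul_mul_smul_comm, Finset.sum_mul_sum, Finset.sum_congr rfl (g := fun _ : P => ∑ u : P, τ u)
      (fun u _ => by
        simp only [← map_mul]
        exact Fintype.sum_equiv (Equiv.mulLeft u) _ _ fun _ => rfl),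
      Finset.sum_const, Finset.card_univ, ← Nat.card_eq_fintype_card, ← Nat.cast_smul_eq_nsmul ℂ, smul_smul,
      mul_assoc, inv_mul_cancel₀ hPc, mul_one]
  have h := isIntegral_trace_mul_idem (T := T) (Q := Q) (by
    show T * Q = Q * T
    rw [hQ, mul_smul_comm, smul_mul_assoc, Finset.mul_sum, Finset.sum_mul]
    exact congrArg _ (Finset.sum_congr rfl fun u _ => (hcomm u).symm)) hidem hTint
  convert h using 1
  rw [hQ, mul_smul_comm, map_smul, smul_eq_mul, Finset.mul_sum (a := T), map_sum]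
  refine congrArg _ (Finset.sum_congr rfl fun u _ => ?_)
  rw [hT, Finset.sum_mul, map_sum, Finset.mul_sum]
  refine Finset.sum_congr rfl fun g hg => ?_
  have hm : R1 g * τ u = TensorProduct.map (ρ (g * (u : G))) (σ.dual u) := by
    rw [hτ, hR1]
    refine TensorProduct.ext' fun v w => ?_
    simp [Representation.tprod_apply, map_mul]
  rw [hm, LinearMap.trace_tensorProduct']
  rw [mul_comm (conj _), ← apply_inv ⟨l, σ, rfl⟩]
  congr 1
  · exact CharBasics.apply_mul_comm ⟨n, ρ, rfl⟩ _ _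
  · exact (Representation.char_dual σ u).symm

/-- Class functions of `P` with locally integral multiplicities. -/
def RO (M : Ideal AlgInt) (P : Subgroup G) [Fintype P] (f : P → ℂ) : Prop :=
  IsClassFunction P f ∧ ∀ θ : IrrCharacter P, MemLocalRing M (classInner f (θ : P → ℂ))

variable (hM : IsPModular p M) {P : Subgroup G} [Fintype P]
include hM

/-- A character against an element fixed by `P` is locally a generalized character of `P`. -/
theorem ro_apply_mul {ψ : G → ℂ} (hψ : IsCharacter G ψ) {w : MonoidAlgebra ℂ G}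
    (hw : ∀ g, MemLocalRing M (w.coeff g)) (hwP : ∀ u ∈ P, ∀ g, w.coeff (u * g * u⁻¹) = w.coeff g) :
    RO M P fun u => ∑ g, w.coeff g * ψ ((u : G) * g) := by
  classical
  constructor
  · intro a c
    refine Fintype.sum_equiv (MulAut.conj ((c : G))⁻¹).toEquiv _ _ fun g => ?_
    show _ = w.coeff ((c : G)⁻¹ * g * (c : G)⁻¹⁻¹) * ψ ((a : G) * ((c : G)⁻¹ * g * (c : G)⁻¹⁻¹))
    rw [hwP _ (P.inv_mem c.2)]
    congr 1
    rw [← CharBasics.apply_conj' hψ (c : G)]
    simp only [Subgroup.coe_mul, Subgroup.coe_inv, inv_inv]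
    congr 1
    group
  intro θ
  let orb : G → Finset G := fun g => Finset.univ.filter fun h => ∃ u : P, (u : G) * g * (u : G)⁻¹ = h
  have horb : ∀ g h, h ∈ orb g → orb h = orb g ∧ w.coeff h = w.coeff g := by
    intro g h hh
    obtain ⟨u, rfl⟩ := (Finset.mem_filter.1 hh).2
    refine ⟨Finset.filter_congr fun x _ => ⟨?_, ?_⟩, hwP u u.2 g⟩
    · rintro ⟨v, rfl⟩
      exact ⟨v * u, by push_cast; group⟩
    · rintro ⟨v, rfl⟩
      exact ⟨v * u⁻¹, by push_cast; group⟩
  have hself : ∀ g, g ∈ orb g := fun g => Finset.mem_filter.2 ⟨Finset.mem_univ _, 1, by simp⟩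
  rw [classInner_eq]
  have hsplit : ∀ u : P, ∑ g, w.coeff g * ψ ((u : G) * g) = ∑ O ∈ Finset.univ.image orb,
      ∑ g ∈ O, w.coeff g * ψ ((u : G) * g) := by
    intro u
    rw [← Finset.sum_fiberwise_of_maps_to (g := orb) (fun g _ => Finset.mem_image_of_mem orb (Finset.mem_univ g))]
    refine Finset.sum_congr rfl fun O hO => Finset.sum_congr ?_ fun _ _ => rfl
    obtain ⟨g₀, -, rfl⟩ := Finset.mem_image.1 hO
    ext g
    exact ⟨fun h => (Finset.mem_filter.1 h).2 ▸ hself g, fun h => Finset.mem_filter.2 ⟨Finset.mem_univ _, (horb g₀ g h).1⟩⟩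
  simp only [hsplit, Finset.sum_mul]
  rw [Finset.sum_comm, Finset.mul_sum]
  refine memLocalRing_sum hM _ fun O hO => ?_
  obtain ⟨g₀, -, rfl⟩ := Finset.mem_image.1 hO
  have e : (Nat.card P : ℂ)⁻¹ * ∑ u : P, ∑ g ∈ orb g₀, w.coeff g * ψ ((u : G) * g) * conj ((θ : P → ℂ) u) =
      w.coeff g₀ * ((Nat.card P : ℂ)⁻¹ * ∑ u : P, conj ((θ : P → ℂ) u) * ∑ g ∈ orb g₀, ψ ((u : G) * g)) := by
    simp only [Finset.mul_sum]
    exact Finset.sum_congr rfl fun u _ => Finset.sum_congr rfl fun g hg => by rw [(horb g₀ g hg).2]; ring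
  rw [e]
  refine memLocalRing_mul hM (hw g₀) (memLocalRing_of_isIntegral hM
    (isIntegral_avg_orbit P hψ (isCharacter_of_irr θ.2) _ fun v hv g hg => ?_))
  obtain ⟨u, rfl⟩ := (Finset.mem_filter.1 hg).2
  exact Finset.mem_filter.2 ⟨Finset.mem_univ _, ⟨v, hv⟩ * u, by simp [mul_assoc]⟩

theorem RO.smul {f : P → ℂ} (hf : RO M P f) {c : ℂ} (hc : MemLocalRing M c) : RO M P (c • f) :=
  ⟨fun g h => by simp [Pi.smul_apply, hf.1 g h],
    fun θ => by rw [classInner_smul_left]; exact memLocalRing_mul hM hc (hf.2 θ)⟩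

theorem RO.sum {ι : Type*} (s : Finset ι) (f : ι → P → ℂ) (h : ∀ i ∈ s, RO M P (f i)) :
    RO M P (∑ i ∈ s, f i) :=
  ⟨fun g c => by simp only [Finset.sum_apply]; exact Finset.sum_congr rfl fun i hi => (h i hi).1 g c,
    fun θ => by rw [classInner_sum_left]; exact memLocalRing_sum hM _ fun i hi => (h i hi).2 θ⟩

theorem ro_character {f : P → ℂ} (hf : IsCharacter P f) : RO M P f :=
  ⟨isClassFunction hf, fun θ => by
    obtain ⟨m, hm⟩ := classInner_character_nat hf θ
    rw [hm]; exact memLocalRing_natCast hM m⟩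

theorem RO.mul {f g : P → ℂ} (hf : RO M P f) (hg : RO M P g) : RO M P (f * g) := by
  classical
  haveI : Fintype (IrrCharacter P) := @Fintype.ofFinite _ finite_irrCharacter
  have e : f * g = ∑ a : IrrCharacter P, ∑ b : IrrCharacter P,
      (classInner f (a : P → ℂ) * classInner g (b : P → ℂ)) • ((a : P → ℂ) * (b : P → ℂ)) := by
    conv_lhs => rw [classFun_expand hf.1, classFun_expand hg.1, Finset.sum_mul_sum]
    exact Finset.sum_congr rfl fun a _ => Finset.sum_congr rfl fun b _ => smul_mul_smul_comm _ _ _ _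
  rw [e]
  exact RO.sum hM _ _ fun a _ => RO.sum hM _ _ fun b _ =>
    (ro_character hM (isCharacter_mul (isCharacter_of_irr a.2) (isCharacter_of_irr b.2))).smul hM
      (memLocalRing_mul hM (hf.2 a) (hg.2 b))

theorem RO.pow {f : P → ℂ} (hf : RO M P f) : ∀ n : ℕ, RO M P (f ^ n)
  | 0 => by
    rw [pow_zero]
    exact ro_character hM (isCharacter_of_irr isIrrCharacter_one)
  | n + 1 => by rw [pow_succ]; exact (RO.pow hf n).mul hM hf

theorem ro_of_pdiv {f : P → ℂ} (hf : IsClassFunction P f) {m : ℕ} (hm : Nat.card P ∣ p ^ m)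
    (h : ∀ u, PDiv p M m (f u)) : RO M P f := by
  refine ⟨hf, fun θ => ?_⟩
  choose r hr hfr using h
  obtain ⟨c, hc⟩ := hm
  rw [classInner_eq]
  have e : (Nat.card P : ℂ)⁻¹ * ∑ u : P, f u * conj ((θ : P → ℂ) u) =
      (c : ℂ) * ∑ u : P, r u * conj ((θ : P → ℂ) u) := by
    rw [Finset.mul_sum, Finset.mul_sum]
    refine Finset.sum_congr rfl fun u _ => ?_
    rw [hfr u, ← Nat.cast_pow, hc, Nat.cast_mul]
    field_simp [Nat.cast_ne_zero.2 (Nat.card_pos (α := P)).ne']
  rw [e]
  exact memLocalRing_mul hM (memLocalRing_natCast hM c)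
    (memLocalRing_sum hM _ fun u _ => memLocalRing_mul hM (hr u) (memLocalRing_conj hM θ u))

theorem RO.memLocalRing {f : P → ℂ} (hf : RO M P f) (u : P) : MemLocalRing M (f u) := by
  classical
  haveI : Fintype (IrrCharacter P) := @Fintype.ofFinite _ finite_irrCharacter
  rw [classFun_expand hf.1, Finset.sum_apply]
  exact memLocalRing_sum hM _ fun a _ => memLocalRing_mul hM (hf.2 a) (memLocalRing_apply hM a u)

theorem RO.sub_one_mem {f : P → ℂ} (hP : IsPGroup p P) (hf : RO M P f) (u : P) : MemLocalIdeal M (f u - f 1) := by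
  classical
  haveI : Fintype (IrrCharacter P) := @Fintype.ofFinite _ finite_irrCharacter
  haveI := Fact.mk hM.1
  rw [classFun_expand hf.1]
  simp only [Finset.sum_apply, Pi.smul_apply, smul_eq_mul, ← Finset.sum_sub_distrib, ← mul_sub]
  refine memLocalIdeal_sum hM _ fun a _ => memLocalIdeal_mul_left hM (hf.2 a) ?_
  have h := BrauerInd.apply_mul_sub_mem hM (isCharacter_of_irr a.2) (Commute.one_right u)
    (IsPGroup.iff_orderOf.1 hP u)
  rwa [mul_one] at h

/-- A locally integral function with unit value at the identity is invertible modulo a power of `p`. -/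
theorem RO.exists_inverse {f : P → ℂ} (hP : IsPGroup p P) (hf : RO M P f) (h1 : ¬ MemLocalIdeal M (f 1)) (m : ℕ) :
    ∃ g, RO M P g ∧ ∀ u, PDiv p M m (f u * g u - 1) := by
  classical
  set c := (f 1)⁻¹ with hc
  have hcO : MemLocalRing M c := memLocalRing_inv hM (hf.memLocalRing hM 1) h1
  have hf1 : f 1 ≠ 0 := fun h0 => h1 (h0 ▸ memLocalIdeal_zero hM)
  set ε : P → ℂ := 1 + (-1 : ℂ) • (c • f) with hε
  have hεu : ∀ u, ε u = 1 - c * f u := fun u => by simp [hε]; ring
  have hsmall : ∀ u, MemLocalIdeal M (ε u) := fun u => by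
    rw [hεu, show 1 - c * f u = (-c) * (f u - f 1) by rw [hc]; field_simp; ring]
    exact memLocalIdeal_mul_left hM (memLocalRing_neg hcO) (hf.sub_one_mem hM hP u)
  choose n₀ hn₀ using fun u => exists_pdiv_pow hM (hsmall u) m
  set n := Finset.univ.sup n₀
  have hεR : RO M P ε := by
    have h1 : RO M P (1 : P → ℂ) := (hf.pow hM 0)
    have := RO.sum hM (Finset.univ : Finset Bool) (fun b => bif b then (1 : P → ℂ) else (-1 : ℂ) • (c • f))
      (fun b _ => by cases b; exacts [(hf.smul hM hcO).smul hM (memLocalRing_neg (memLocalRing_one hM)), h1])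
    simpa [hε] using this
  refine ⟨c • ∑ j ∈ Finset.range n, ε ^ j, (RO.sum hM _ _ fun j _ => hεR.pow hM j).smul hM hcO, fun u => ?_⟩
  have e : f u * (c • ∑ j ∈ Finset.range n, ε ^ j) u - 1 = -(ε u ^ n) := by
    have h2 := mul_neg_geom_sum (ε u) n
    simp only [Pi.smul_apply, Finset.sum_apply, Pi.pow_apply, smul_eq_mul]
    rw [show f u * (c * ∑ j ∈ Finset.range n, ε u ^ j) = (1 - ε u) * ∑ j ∈ Finset.range n, ε u ^ j by rw [hεu]; ring,
      h2]
    ring
  rw [e]
  exact (hn₀ u n (Finset.le_sup (Finset.mem_univ u))).neg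

end CfsgLib.NilBlock
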