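import Cfsg.Agent.Blocks.NilBlock.Setup
import Cfsg.Agent.Blocks.NilBlock.Integral
import Cfsg.Agent.Blocks.NilBlock.Arith

/-!
# The characters of a nilpotent block against the characters of its defect group
-/

set_option autoImplicit false
set_option linter.unusedSectionVars false
set_option linter.style.haveILetI false

namespace CfsgLib.NilBlock

open Cfsg CfsgLib.Blocks CfsgLib.CharBasics Polynomial
open scoped ComplexConjugate

attribute [local instance] CfsgLib.Blocks.residueField CfsgLib.Blocks.residue_charP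

universe u

variable {p : ℕ} [Fact p.Prime] {M : Ideal AlgInt} {G : Type u} [Group G] [Fintype G]

noncomputable local instance instFintypeSubgroupNilMain (K : Subgroup G) : Fintype K := Fintype.ofFinite K

theorem RO.add (hM : IsPModular p M) {P : Subgroup G} {f g : P → ℂ} (hf : RO M P f) (hg : RO M P g) :
    RO M P (f + g) :=
  ⟨fun a b => by simp only [Pi.add_apply, hf.1 a b, hg.1 a b],
    fun θ => by rw [classInner_add_left]; exact memLocalRing_add hM (hf.2 θ) (hg.2 θ)⟩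

theorem card_centralizer_subgroup (P : Subgroup G) (x : P) :
    Nat.card (Subgroup.centralizer ({x} : Set P)) = Nat.card ↥(P ⊓ cen (x : G)) :=
  Nat.card_congr
    { toFun := fun c => ⟨(c : P), (c : P).2, Subgroup.mem_centralizer_singleton_iff.2
        (congrArg Subtype.val (Subgroup.mem_centralizer_singleton_iff.1 c.2))⟩
      invFun := fun c => ⟨⟨(c : G), c.2.1⟩, Subgroup.mem_centralizer_singleton_iff.2
        (Subtype.ext (Subgroup.mem_centralizer_singleton_iff.1 c.2.2))⟩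
      left_inv := fun c => rfl
      right_inv := fun c => rfl }

variable (hM : IsPModular p M) {B : Set (IrrCharacter G)} {P : Subgroup G}
  {e : Set (IrrCharacter (Subgroup.centralizer (P : Set G)))} (hmax : IsMaximalBrauerPair p M B P e)
  (χ : IrrCharacter G)

include hM hmax in
/-- The order of the group of a maximal pair. -/
theorem card_of_maximal : Nat.card P = p ^ blockDefect p B := by
  have hB : IsPBlock M B := hmax.1.2.1
  obtain ⟨D, hD⟩ := exists_defectGroup hM hB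
  obtain ⟨hDp, hDne, hDc⟩ := (PairAlg.isDefectGroup_iff hM (MonoidHom.id G) PairAlg.id_injective hB).1 hD
  rw [Subgroup.map_id] at hDne
  rw [PairAlg.range_id] at hDc
  have hm := PairAlg.isMax_bc hM hmax
  rw [← card_defectGroup hM hB hD]
  refine le_antisymm ?_ (PairAlg.card_le_of_br_ne (PairAlg.complete hM) hm hDp le_top hDne)
  rw [hDc]
  exact PairAlg.le_dmax hmax.1.1.1 le_top hm.1.br_ne

/-- The contribution against the chosen member of height zero, on the defect group. -/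
noncomputable def fpsi (ψ : IrrCharacter G) : P → ℂ := fun x => NN hM hmax (x : G) (ψ : G → ℂ) (χ : G → ℂ)

/-- Its multiplicities. -/
noncomputable def acoef (θ : IrrCharacter P) (ψ : IrrCharacter G) : ℂ :=
  classInner (fpsi hM hmax χ ψ) (θ : P → ℂ)

theorem isClassFunction_fpsi (ψ : IrrCharacter G) : IsClassFunction P (fpsi hM hmax χ ψ) := fun x w => by
  show NN hM hmax ((w * x * w⁻¹ : P) : G) _ _ = _
  rw [Subgroup.coe_mul, Subgroup.coe_mul, Subgroup.coe_inv]
  exact NN_inner hM hmax w.2 x.2 (isClassFunction (isCharacter_of_irr ψ.2)) (isClassFunction (isCharacter_of_irr χ.2))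

/-- A central element scales a contribution. -/
theorem fpsi_central (hχZ : ∀ z ∈ P, z ∈ Subgroup.center G → (χ : G → ℂ) z = (χ : G → ℂ) 1) (ψ : IrrCharacter G)
    {z : P} (hz : (z : G) ∈ Subgroup.center G) (x : P) :
    fpsi hM hmax χ ψ (z * x) = (ψ : G → ℂ) z / (ψ : G → ℂ) 1 * fpsi hM hmax χ ψ x := by
  show NN hM hmax ((z * x : P) : G) _ _ = _
  rw [Subgroup.coe_mul, NN_central hM hmax hz z.2 x.2 ψ χ, hχZ _ z.2 hz, div_self (apply_one_ne_zero χ.2),
    map_one, mul_one]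
  rfl

theorem fpsi_expand [Fintype (IrrCharacter P)] (ψ : IrrCharacter G) :
    fpsi hM hmax χ ψ = ∑ θ : IrrCharacter P, acoef hM hmax χ θ ψ • (θ : P → ℂ) :=
  classFun_expand (isClassFunction_fpsi hM hmax χ ψ)

variable (hnil : IsNilpotentBlock p M B) (hχ : χ ∈ B) (hmin : ∀ ρ ∈ B, degExp p χ ≤ degExp p ρ)
  (hχZ : ∀ z ∈ P, z ∈ Subgroup.center G → (χ : G → ℂ) z = (χ : G → ℂ) 1)
include hM hmax hnil hχ hmin hχZ

theorem memLocalRing_fpsi (ψ : IrrCharacter G) (x : P) : MemLocalRing M (fpsi hM hmax χ ψ x) := by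
  obtain ⟨ξ₀, -, -, -, -, hNN⟩ := exists_NN_poly hM hmax hnil x.2
  rw [fpsi, ← hNN ψ χ]
  exact memLocalRing_aeval hM Nat.card_pos.ne' (zetaRoot_prim Nat.card_pos.ne').pow_eq_one _

/-- The multiplicities are orthonormal. -/
theorem acoef_orth [Fintype (IrrCharacter G)] (θ θ' : IrrCharacter P) [Decidable (θ = θ')] :
    ∑ ψ : IrrCharacter G, acoef hM hmax χ θ ψ * conj (acoef hM hmax χ θ' ψ) = if θ = θ' then 1 else 0 := by
  classical
  have horth : ∀ x y : P, ∑ ψ : IrrCharacter G, fpsi hM hmax χ ψ x * conj (fpsi hM hmax χ ψ y) =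
      if IsConj x y then (Nat.card (Subgroup.centralizer ({x} : Set P)) : ℂ) else 0 := by
    intro x y
    simp only [fpsi]
    rw [orth_NN hM hmax hnil x.2 y.2 χ, NN_self hM hmax hnil hχ hmin x.2, mul_one, card_centralizer_subgroup]
    refine if_congr ⟨?_, ?_⟩ rfl rfl
    · rintro ⟨w, hw, he⟩
      exact isConj_iff.2 ⟨⟨w, hw⟩, Subtype.ext he⟩
    · intro h
      obtain ⟨w, hw⟩ := isConj_iff.1 h
      exact ⟨w, w.2, congrArg Subtype.val hw⟩
  have key : ∀ x : P, ∑ y : P, (θ' : P → ℂ) y * (if IsConj x y then (Nat.card (Subgroup.centralizer ({x} : Set P)) : ℂ) else 0) =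
      (Nat.card P : ℂ) * (θ' : P → ℂ) x := by
    intro x
    rw [← sum_class_mul (isClassFunction (isCharacter_of_irr θ'.2)) x]
    exact Finset.sum_congr rfl fun y _ => by split_ifs <;> ring
  have hP0 : (Nat.card P : ℂ) ≠ 0 := Nat.cast_ne_zero.2 Nat.card_pos.ne'
  calc ∑ ψ : IrrCharacter G, acoef hM hmax χ θ ψ * conj (acoef hM hmax χ θ' ψ)
      = (Nat.card P : ℂ)⁻¹ ^ 2 * ∑ x : P, conj ((θ : P → ℂ) x) * ∑ y : P, (θ' : P → ℂ) y *
          ∑ ψ : IrrCharacter G, fpsi hM hmax χ ψ x * conj (fpsi hM hmax χ ψ y) := by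
        simp only [acoef, classInner_eq, map_mul, map_sum, map_inv₀, Complex.conj_natCast, Complex.conj_conj,
          Finset.mul_sum, Finset.sum_mul]
        rw [Finset.sum_comm]
        conv_lhs => arg 2; ext; rw [Finset.sum_comm]
        rw [Finset.sum_comm]
        exact Finset.sum_congr rfl fun x _ => Finset.sum_congr rfl fun y _ => Finset.sum_congr rfl fun ψ _ => by ring
    _ = (Nat.card P : ℂ)⁻¹ ^ 2 * ((Nat.card P : ℂ) * ∑ x : P, (θ' : P → ℂ) x * conj ((θ : P → ℂ) x)) := by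
        simp only [horth, key]
        congr 1
        rw [Finset.mul_sum]
        exact Finset.sum_congr rfl fun x _ => by ring
    _ = _ := by
        rw [sum_mul_conj θ' θ]
        by_cases h : θ = θ'
        · rw [if_pos h, if_pos h.symm]; field_simp
        · rw [if_neg h, if_neg (Ne.symm h)]; simp

/-- A multiplicity vanishes unless the central characters agree. -/
theorem acoef_shift (θ : IrrCharacter P) (ψ : IrrCharacter G) {z : P} (hz : (z : G) ∈ Subgroup.center G) :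
    ((ψ : G → ℂ) z / (ψ : G → ℂ) 1 * conj ((θ : P → ℂ) z / (θ : P → ℂ) 1) - 1) * acoef hM hmax χ θ ψ = 0 := by
  have hzc : z ∈ Subgroup.center P := Subgroup.mem_center_iff.2 fun a => Subtype.ext (Subgroup.mem_center_iff.1 hz a)
  have hθ : ∀ x : P, (θ : P → ℂ) (z * x) = (θ : P → ℂ) z / (θ : P → ℂ) 1 * (θ : P → ℂ) x := fun x => by
    have h := center_mul θ.2 hzc x
    field_simp [apply_one_ne_zero θ.2]
    linear_combination h
  rw [sub_mul, one_mul, sub_eq_zero, acoef, classInner_eq, ← mul_assoc, mul_comm _ ((Nat.card P : ℂ)⁻¹), mul_assoc,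
    Finset.mul_sum]
  congr 1
  refine Fintype.sum_equiv (Equiv.mulLeft z) _ _ fun x => ?_
  simp only [Equiv.coe_mulLeft, fpsi_central hM hmax χ hχZ ψ hz x, hθ x, map_mul]
  ring

/-- Integral multiplicities are cyclotomic integers. -/
theorem exists_acoef_poly {ψ : IrrCharacter G} (hf : RO M P (fpsi hM hmax χ ψ)) (θ : IrrCharacter P) :
    ∃ A : ℤ[X], aeval (zetaRoot (Nat.card P)) A = acoef hM hmax χ θ ψ := by
  classical
  obtain ⟨d, hd⟩ := IsPGroup.iff_card.1 hmax.1.1.1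
  choose ξ₀ _ _ _ _ hNN using fun x : P => exists_NN_poly hM hmax hnil x.2
  choose Q hQ using fun x : P => exists_apply_poly (isCharacter_of_irr θ.2) (N := Nat.card P) Nat.card_pos.ne'
    (orderOf_dvd_natCard x⁻¹)
  set R := ∑ x : P, contribPoly p (Nat.card P) (x : G) (belb hM hmax x) (degExp p (ξ₀ x)) ψ χ * Q x with hR
  have hval : aeval (zetaRoot (Nat.card P)) R = ∑ x : P, fpsi hM hmax χ ψ x * conj ((θ : P → ℂ) x) := by
    rw [hR, map_sum]
    refine Finset.sum_congr rfl fun x _ => ?_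
    rw [map_mul, hNN x ψ χ, hQ x, apply_inv (isCharacter_of_irr θ.2)]
    rfl
  have hcard : (Nat.card P : ℂ) = (p : ℂ) ^ d := by rw [hd, Nat.cast_pow]
  have hmem : MemLocalRing M (aeval (zetaRoot (p ^ d)) R / (p : ℂ) ^ d) := by
    rw [← hd, hval, ← hcard, div_eq_inv_mul, ← classInner_eq]
    exact hf.2 θ
  obtain ⟨A, hA⟩ := exists_poly_div hM d R hmem
  refine ⟨A, ?_⟩
  rw [acoef, classInner_eq, ← div_eq_inv_mul, ← hval, hd, Nat.cast_pow, hA]

/-- Integrality of all the multiplicities gives one character for each character of the defect group. -/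
theorem exists_unique_support [Fintype (IrrCharacter G)] (θ : IrrCharacter P)
    (hf : ∀ ψ : IrrCharacter G, acoef hM hmax χ θ ψ = 0 ∨ RO M P (fpsi hM hmax χ ψ)) :
    ∃ ψ : IrrCharacter G, ‖acoef hM hmax χ θ ψ‖ = 1 ∧ ∀ φ, φ ≠ ψ → acoef hM hmax χ θ φ = 0 := by
  classical
  have hpoly : ∀ ψ : IrrCharacter G, ∃ A : ℤ[X], aeval (zetaRoot (Nat.card P)) A = acoef hM hmax χ θ ψ := fun ψ => by
    rcases hf ψ with h | h
    · exact ⟨0, by rw [h, map_zero]⟩
    · exact exists_acoef_poly hM hmax χ hnil hχ hmin hχZ h θ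
  choose A hA using hpoly
  obtain ⟨ψ, h1, h2⟩ := single_support (Nat.card_pos (α := P)).ne' A (by
    simp only [hA]; rw [acoef_orth hM hmax χ hnil hχ hmin hχZ θ θ, if_pos rfl])
  exact ⟨ψ, hA ψ ▸ h1, fun φ hφ => hA φ ▸ h2 φ hφ⟩

/-- Distinct characters of the defect group have distinct characters. -/
theorem support_injective [Fintype (IrrCharacter G)] {θ θ' : IrrCharacter P} {ψ : IrrCharacter G}
    (h : ∀ φ, φ ≠ ψ → acoef hM hmax χ θ φ = 0) (hθ : acoef hM hmax χ θ ψ ≠ 0)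
    (hθ' : acoef hM hmax χ θ' ψ ≠ 0) : θ = θ' := by
  classical
  by_contra hne
  have ho := acoef_orth hM hmax χ hnil hχ hmin hχZ θ θ'
  rw [if_neg hne, Finset.sum_eq_single ψ (fun φ _ hφ => by rw [h φ hφ, zero_mul]) (by simp), mul_eq_zero] at ho
  rcases ho with ho | ho
  · exact hθ ho
  · exact hθ' ((map_eq_zero _).1 ho)

/-- A proportionality constant is the contribution. -/
theorem NN_of_prop {x : G} (hx : x ∈ P) {ψ : IrrCharacter G} {c : ℂ}
    (h : ∀ y, SV p x (cf hM hmax x) (ψ : G → ℂ) y = c * SV p x (cf hM hmax x) (χ : G → ℂ) y) :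
    c = NN hM hmax x (ψ : G → ℂ) (χ : G → ℂ) := by
  have h1 : NN hM hmax x (ψ : G → ℂ) (χ : G → ℂ) = c * NN hM hmax x (χ : G → ℂ) (χ : G → ℂ) := by
    simp only [NN, KS, h, mul_assoc, ← Finset.mul_sum]
    ring
  rw [h1, NN_self hM hmax hnil hχ hmin hx, mul_one]

/-- The contribution of a proportional character to itself. -/
theorem NN_self_of_prop {x : G} (hx : x ∈ P) {ψ : IrrCharacter G} {c : ℂ}
    (h : ∀ y, SV p x (cf hM hmax x) (ψ : G → ℂ) y = c * SV p x (cf hM hmax x) (χ : G → ℂ) y) :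
    NN hM hmax x (ψ : G → ℂ) (ψ : G → ℂ) = c * conj c := by
  have h1 : NN hM hmax x (ψ : G → ℂ) (ψ : G → ℂ) = c * conj c * NN hM hmax x (χ : G → ℂ) (χ : G → ℂ) := by
    simp only [NN, KS, h, map_mul]
    rw [Finset.mul_sum, Finset.mul_sum, Finset.mul_sum]
    exact Finset.sum_congr rfl fun y _ => by ring
  rw [h1, NN_self hM hmax hnil hχ hmin hx, mul_one]

/-- The value at the identity against the regular sum. -/
theorem fpsi_one {ψ : IrrCharacter G} (hψ : ψ ∈ B) :
    fpsi hM hmax χ ψ 1 = (Nat.card P : ℂ) / (Nat.card G : ℂ) * regSum p (ψ : G → ℂ) (χ : G → ℂ) := by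
  classical
  have h1 : (1 : G) ∈ Subgroup.center G := Subgroup.one_mem _
  have hc : cen (1 : G) = ⊤ := eq_top_iff.2 fun g _ => Subgroup.mem_centralizer_singleton_iff.2 (by simp)
  show NN hM hmax ((1 : P) : G) _ _ = _
  rw [Subgroup.coe_one, NN, hc, inf_top_eq, Subgroup.card_top]
  congr 1
  rw [regSum, KS]
  refine Finset.sum_congr rfl fun y _ => ?_
  split_ifs with hy
  · rw [SV_of_not (Or.inl hy), zero_mul]
  · rw [SV_of_center hM hmax hnil P.one_mem h1 hψ hy, SV_of_center hM hmax hnil P.one_mem h1 hχ hy, one_mul]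

/-- It is an integer with the `p`-part of the height. -/
theorem fpsi_one_eq {ψ : IrrCharacter G} (hψ : ψ ∈ B) :
    ∃ q : ℤ, fpsi hM hmax χ ψ 1 = (q : ℂ) ∧ ¬ (p : ℤ) ^ (degExp p ψ - degExp p χ + 1) ∣ q ∧
      (p : ℤ) ^ (degExp p ψ - degExp p χ) ∣ q := by
  obtain ⟨χ₁, hχ₁, hmin₁, hs⟩ := exists_min_degExp hM hnil.1
  have he : degExp p χ = degExp p χ₁ := le_antisymm (hmin χ₁ hχ₁) (hmin₁ χ hχ)
  set R := regInt p (ψ : G → ℂ) (χ : G → ℂ) with hR
  have hd1 : (p : ℤ) ^ degExp p ψ ∣ R := by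
    have := pow_dvd_regInt hM ψ χ
    exact this
  have hle := hmin ψ hψ
  obtain ⟨q, hq⟩ : (p : ℤ) ^ degExp p χ ∣ R := (pow_dvd_pow _ hle).trans hd1
  have hp0 : (p : ℤ) ^ degExp p χ ≠ 0 := pow_ne_zero _ (Int.natCast_ne_zero.2 hM.1.ne_zero)
  refine ⟨q, ?_, fun h => ?_, ?_⟩
  · rw [fpsi_one hM hmax χ hnil hχ hmin hχZ hψ, regSum_eq_regInt hM.1 (isCharacter_of_irr ψ.2) (isCharacter_of_irr χ.2),
      ← hR, hq]
    rw [card_of_maximal hM hmax, blockDefect_eq hs, ← he, Int.cast_mul, Int.cast_pow, Int.cast_natCast,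
      Nat.cast_pow, pow_sub₀ _ (Nat.cast_ne_zero.2 hM.1.ne_zero) (degExp_le hM.1 χ)]
    have hG : (Nat.card G : ℂ) = (p : ℂ) ^ (Nat.card G).factorization p *
        ((Nat.card G / p ^ (Nat.card G).factorization p : ℕ) : ℂ) := by
      rw [← Nat.cast_pow, ← Nat.cast_mul, Nat.ordProj_mul_ordCompl_eq_self]
    have hm0 := ordCompl_ne_zero_cast (G := G) p
    have hp1 : (p : ℂ) ≠ 0 := Nat.cast_ne_zero.2 hM.1.ne_zero
    rw [hG]
    field_simp
  · refine regInt_not_dvd hM hnil.1 hχ hmin hψ ?_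
    rw [regInt_comm hM.1, ← hR, hq, show degExp p ψ + 1 = degExp p χ + (degExp p ψ - degExp p χ + 1) by omega, pow_add]
    exact mul_dvd_mul_left _ h
  · rw [hq, show degExp p ψ = degExp p χ + (degExp p ψ - degExp p χ) by omega, pow_add] at hd1
    exact (mul_dvd_mul_iff_left hp0).1 hd1

theorem fpsi_one_ne {ψ : IrrCharacter G} (hψ : ψ ∈ B) : fpsi hM hmax χ ψ 1 ≠ 0 := by
  obtain ⟨q, hq, hndvd, -⟩ := fpsi_one_eq hM hmax χ hnil hχ hmin hχZ hψ
  rw [hq, Int.cast_ne_zero]
  exact fun h => hndvd (h ▸ dvd_zero _)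

/-- An integral function is one irreducible character up to a root of unity. -/
theorem exists_fpsi_eq [Fintype (IrrCharacter G)] {ψ : IrrCharacter G} (hψ : ψ ∈ B)
    (hf : ∀ θ : IrrCharacter P, acoef hM hmax χ θ ψ ≠ 0 →
      ∀ φ : IrrCharacter G, acoef hM hmax χ θ φ = 0 ∨ RO M P (fpsi hM hmax χ φ)) :
    ∃ θ : IrrCharacter P, ‖acoef hM hmax χ θ ψ‖ = 1 ∧ fpsi hM hmax χ ψ = acoef hM hmax χ θ ψ • (θ : P → ℂ) ∧
      ∀ φ, φ ≠ ψ → acoef hM hmax χ θ φ = 0 := by
  classical
  haveI : Fintype (IrrCharacter P) := @Fintype.ofFinite _ finite_irrCharacter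
  obtain ⟨θ, hθ⟩ : ∃ θ, acoef hM hmax χ θ ψ ≠ 0 := by
    by_contra hcon
    push Not at hcon
    refine fpsi_one_ne hM hmax χ hnil hχ hmin hχZ hψ ?_
    rw [fpsi_expand hM hmax χ ψ, Finset.sum_apply]
    exact Finset.sum_eq_zero fun θ _ => by rw [hcon θ, zero_smul, Pi.zero_apply]
  obtain ⟨ψ', h1, h2⟩ := exists_unique_support hM hmax χ hnil hχ hmin hχZ θ (hf θ hθ)
  obtain rfl : ψ = ψ' := by_contra fun hne => hθ (h2 ψ hne)
  refine ⟨θ, h1, ?_, h2⟩
  conv_lhs => rw [fpsi_expand hM hmax χ ψ]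
  refine Finset.sum_eq_single θ (fun θ' _ hne => ?_) (by simp)
  by_contra h
  exact hne (support_injective hM hmax χ hnil hχ hmin hχZ h2 hθ (fun h0 => h (by rw [h0, zero_smul]))).symm

end CfsgLib.NilBlock
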