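import Cfsg.Agent.Blocks.NilBlock.Main
import Cfsg.Agent.Blocks.RegularRank

/-!
# Nilpotent blocks have one Brauer character
-/

set_option autoImplicit false
set_option linter.unusedSectionVars false
set_option linter.style.haveILetI false

namespace CfsgLib.NilBlock

open Cfsg CfsgLib.Blocks CfsgLib.CharBasics
open scoped ComplexConjugate

attribute [local instance] CfsgLib.Blocks.residueField CfsgLib.Blocks.residue_charP

universe u

variable {p : ℕ} [Fact p.Prime] {M : Ideal AlgInt}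

noncomputable local instance instFintypeSubgroupNilInduction {G : Type u} [Group G] [Fintype G] (K : Subgroup G) :
    Fintype K := Fintype.ofFinite K

section Stage

variable {G : Type u} [Group G] [Fintype G]
  (hM : IsPModular p M) {B : Set (IrrCharacter G)} {P : Subgroup G}
  {e : Set (IrrCharacter (Subgroup.centralizer (P : Set G)))} (hmax : IsMaximalBrauerPair p M B P e)
  (χ : IrrCharacter G) (hnil : IsNilpotentBlock p M B) (hχ : χ ∈ B) (hmin : ∀ ρ ∈ B, degExp p χ ≤ degExp p ρ)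
  (hχZ : ∀ z ∈ P, z ∈ Subgroup.center G → (χ : G → ℂ) z = (χ : G → ℂ) 1)
  {w : MonoidAlgebra ℂ G} (hw : ∀ g, MemLocalRing M (w.coeff g))
  (hwP : ∀ u ∈ P, ∀ g, w.coeff (u * g * u⁻¹) = w.coeff g)
  (hwχ : ¬ MemLocalIdeal M (∑ g, w.coeff g * (χ : G → ℂ) g))
  (hsmall : ∀ u ∈ P, ∀ b : Set (IrrCharacter (cen u)), IsPBlock M b → b ≠ belb hM hmax u →
    ∀ c, MemLocalIdeal M ((blockElt b * ZStar.res (cen u) w).coeff c))
  (hoff : ∀ x : P, (x : G) ∉ Subgroup.center G → ∀ (ψ : IrrCharacter G) (y : G),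
    SV p (x : G) (cf hM hmax (x : G)) (ψ : G → ℂ) y =
      fpsi hM hmax χ ψ x * SV p (x : G) (cf hM hmax (x : G)) (χ : G → ℂ) y)
include hM hmax hnil hχ hmin hχZ hw hwP hwχ hsmall

/-- The test functions and an inverse for them. -/
theorem exists_test {d : ℕ} (hd : Nat.card P = p ^ d) :
    ∃ (n : ℕ) (g : P → ℂ), RO M P g ∧
      (∀ ψ : IrrCharacter G, RO M P fun x : P => GF p n w (ψ : G → ℂ) (x : G)) ∧
      (∀ x : P, PDiv p M d (GF p n w (χ : G → ℂ) (x : G) * g x - 1)) ∧
      ∀ (x : P) (ψ : IrrCharacter G) (c : ℂ), MemLocalRing M c →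
        (∀ y, SV p (x : G) (cf hM hmax (x : G)) (ψ : G → ℂ) y = c * SV p (x : G) (cf hM hmax (x : G)) (χ : G → ℂ) y) →
        PDiv p M d (GF p n w (ψ : G → ℂ) (x : G) * g x - c) := by
  classical
  have hP := hmax.1.1.1
  choose k hk using fun x : P => exists_orderOf_eq_of_mem hP x.2
  choose n₀ hn₀ using fun x : P => gf_congr hM (hk x) hw (hwP x x.2) (belb_props hM hmax hnil x.2).1.1 (hsmall x x.2) d
  set n := Finset.univ.sup n₀ with hn
  have hwn : ∀ g, MemLocalRing M ((w ^ p ^ n).coeff g) := IsIntegralElt.pow hM hw _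
  have hwnP : ∀ u ∈ P, ∀ g, (w ^ p ^ n).coeff (u * g * u⁻¹) = (w ^ p ^ n).coeff g := fun u hu g =>
    ((PairAlg.fix_of_coeff fun v hv x => hwP v hv x).pow (p ^ n)).coeff hu g
  have hRO : ∀ ψ : IrrCharacter G, RO M P fun x : P => GF p n w (ψ : G → ℂ) (x : G) := fun ψ =>
    ro_apply_mul hM (isCharacter_of_irr ψ.2) hwn hwnP
  have h1 : ¬ MemLocalIdeal M (GF p n w (χ : G → ℂ) ((1 : P) : G)) := by
    intro h
    have hmem := (hRO χ).memLocalRing hM 1
    rw [Subgroup.coe_one] at h hmem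
    refine hwχ ?_
    rw [← PairAlg.rd_eq_zero hM (memLocalRing_sum hM _ fun g _ => memLocalRing_mul hM (hw g) (memLocalRing_apply hM χ g))]
    have h2 := (PairAlg.rd_eq_zero hM hmem).2 h
    rw [gf_one_congr hM hw χ n] at h2
    exact pow_eq_zero_iff (pow_ne_zero _ hM.1.ne_zero) |>.1 h2
  obtain ⟨g, hg, hgg⟩ := (hRO χ).exists_inverse hM hP h1 d
  refine ⟨n, g, hg, hRO, hgg, fun x ψ c hc hprop => ?_⟩
  have hψx := hn₀ x n (Finset.le_sup (Finset.mem_univ x)) ψ
  have hχx := hn₀ x n (Finset.le_sup (Finset.mem_univ x)) χ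
  have hRG : RG p n w (x : G) (cf hM hmax (x : G)) (ψ : G → ℂ) =
      c * RG p n w (x : G) (cf hM hmax (x : G)) (χ : G → ℂ) := by
    simp only [RG, hprop, Finset.mul_sum]
    exact Finset.sum_congr rfl fun _ _ => by ring
  rw [show cf hM hmax (x : G) = coef (x : G) (belb hM hmax (x : G)) from rfl] at hRG
  rw [hRG] at hψx
  have h3 := PDiv.add hM (PDiv.mul hM (PDiv.sub hM hψx (PDiv.mul_left hM hc hχx)) (hg.memLocalRing hM x))
    (PDiv.mul_left hM hc (hgg x))
  convert h3 using 1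
  ring

/-- Proportional everywhere gives integral multiplicities. -/
theorem ro_of_prop {ψ : IrrCharacter G}
    (hprop : ∀ (x : P) (y : G), SV p (x : G) (cf hM hmax (x : G)) (ψ : G → ℂ) y =
      fpsi hM hmax χ ψ x * SV p (x : G) (cf hM hmax (x : G)) (χ : G → ℂ) y) :
    RO M P (fpsi hM hmax χ ψ) := by
  obtain ⟨d, hd⟩ := IsPGroup.iff_card.1 hmax.1.1.1
  obtain ⟨n, g, hg, hRO, -, hc⟩ := exists_test hM hmax χ hnil hχ hmin hχZ hw hwP hwχ hsmall hd
  set h : P → ℂ := (fun x : P => GF p n w (ψ : G → ℂ) (x : G)) * g with hh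
  have hhR : RO M P h := (hRO ψ).mul hM hg
  have e : fpsi hM hmax χ ψ = h + (fpsi hM hmax χ ψ - h) := by abel
  rw [e]
  refine hhR.add hM (ro_of_pdiv hM (fun a b => ?_) (m := d) (dvd_of_eq hd) fun x => ?_)
  · simp only [Pi.sub_apply, isClassFunction_fpsi hM hmax χ ψ a b, hhR.1 a b]
  · have := (hc x ψ _ (memLocalRing_fpsi hM hmax χ hnil hχ hmin hχZ ψ x) (hprop x)).neg
    simpa [hh] using this

include hoff

/-- Proportional off the centre and trivial on it gives integral multiplicities. -/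
theorem ro_of_trivial {ψ : IrrCharacter G} (hψ : ψ ∈ B)
    (hψZ : ∀ z ∈ P, z ∈ Subgroup.center G → (ψ : G → ℂ) z = (ψ : G → ℂ) 1) : RO M P (fpsi hM hmax χ ψ) := by
  classical
  obtain ⟨d, hd⟩ := IsPGroup.iff_card.1 hmax.1.1.1
  obtain ⟨n, g, hg, hRO, hgg, hc⟩ := exists_test hM hmax χ hnil hχ hmin hχZ hw hwP hwχ hsmall hd
  set h : P → ℂ := (fun x : P => GF p n w (ψ : G → ℂ) (x : G)) * g with hh
  have hhR : RO M P h := (hRO ψ).mul hM hg
  set Zs : Subgroup P := (Subgroup.center G).subgroupOf P with hZs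
  set D : P → ℂ := fpsi hM hmax χ ψ - h with hD
  set c := D 1 with hcdef
  set I : P → ℂ := fun x => if x ∈ Zs then 1 else 0 with hI
  have hIc : IsClassFunction P I := fun a b => by
    refine if_congr ?_ rfl rfl
    simp only [hZs, Subgroup.mem_subgroupOf, Subgroup.coe_mul, Subgroup.coe_inv]
    constructor
    · intro h1
      have := Subgroup.mem_center_iff.1 h1 (b : G)
      have e : (a : G) = (b : G)⁻¹ * ((b : G) * (a : G) * (b : G)⁻¹) * b := by group
      rw [e, mul_assoc, ← this, ← mul_assoc, inv_mul_cancel, one_mul]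
      exact h1
    · intro h1
      rwa [Subgroup.mem_center_iff.1 h1 (b : G), mul_inv_cancel_right]
  have htriv : ∀ (φ : IrrCharacter G), (∀ z ∈ P, z ∈ Subgroup.center G → (φ : G → ℂ) z = (φ : G → ℂ) 1) →
      ∀ x : P, x ∈ Zs → GF p n w (φ : G → ℂ) (x : G) = GF p n w (φ : G → ℂ) ((1 : P) : G) := by
    intro φ hφ x hx
    simp only [GF, Subgroup.coe_one, one_mul]
    refine Finset.sum_congr rfl fun a _ => ?_
    congr 1
    have h2 := center_mul φ.2 (show (x : G) ∈ Subgroup.center G from hx) a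
    rw [hφ _ x.2 hx] at h2
    exact mul_left_cancel₀ (apply_one_ne_zero φ.2) h2
  have hf1 : ∀ x : P, x ∈ Zs → fpsi hM hmax χ ψ x = fpsi hM hmax χ ψ 1 := fun x hx => by
    conv_lhs => rw [← mul_one x]
    rw [fpsi_central hM hmax χ hχZ ψ (show (x : G) ∈ Subgroup.center G from hx), hψZ _ x.2 hx,
      div_self (apply_one_ne_zero ψ.2), one_mul]
  have hE : ∀ x : P, PDiv p M d (D x - c * I x) := by
    intro x
    by_cases hx : x ∈ Zs
    · have hg1 : PDiv p M d (g x - g 1) := by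
        have a1 := PDiv.mul_left hM (hg.memLocalRing hM x) (hgg 1)
        have a2 := PDiv.mul_left hM (hg.memLocalRing hM 1) (hgg x)
        have a3 := PDiv.sub hM a2 a1
        rw [htriv χ hχZ x hx] at a3
        convert a3 using 1
        ring
      have := (PDiv.mul_left hM ((hRO ψ).memLocalRing hM 1) hg1).neg
      simp only [hD, hcdef, hI, if_pos hx, mul_one, Pi.sub_apply, hh, Pi.mul_apply]
      rw [htriv ψ hψZ x hx, hf1 x hx]
      convert this using 1
      ring
    · have := (hc x ψ _ (memLocalRing_fpsi hM hmax χ hnil hχ hmin hχZ ψ x)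
        (hoff x hx ψ)).neg
      simp only [hD, hI, if_neg hx, mul_zero, sub_zero, Pi.sub_apply, hh, Pi.mul_apply]
      convert this using 1
      ring
  have hEc : IsClassFunction P (D - c • I) := fun a b => by
    simp only [hD, Pi.sub_apply, Pi.smul_apply, isClassFunction_fpsi hM hmax χ ψ a b, hhR.1 a b, hIc a b]
  have hER : RO M P (D - c • I) := ro_of_pdiv hM hEc (m := d) (dvd_of_eq hd) fun x => by simpa using hE x
  have hIθ : ∀ θ : IrrCharacter P, ∃ m : ℕ,
      classInner I (θ : P → ℂ) = (Nat.card Zs : ℂ) / (Nat.card P : ℂ) * m := by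
    intro θ
    obtain ⟨m, hm⟩ := classInner_character_nat (isCharacter_restrict (isCharacter_of_irr θ.2) Zs) (oneChar : IrrCharacter Zs)
    refine ⟨m, ?_⟩
    have hm' : (Nat.card Zs : ℂ)⁻¹ * ∑ z : Zs, (θ : P → ℂ) z = m := by
      rw [← classInner_one]; exact hm
    have hm2 : ∑ z : Zs, conj ((θ : P → ℂ) z) = (Nat.card Zs : ℂ) * m := by
      have h3 := congrArg conj hm'
      rw [map_mul, map_inv₀, Complex.conj_natCast, Complex.conj_natCast, map_sum] at h3
      rw [← h3, mul_inv_cancel_left₀ (Nat.cast_ne_zero.2 Nat.card_pos.ne')]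
    rw [classInner_eq]
    have h4 : ∑ x : P, I x * conj ((θ : P → ℂ) x) = ∑ z : Zs, conj ((θ : P → ℂ) z) := by
      simp only [hI, ite_mul, one_mul, zero_mul, ← Finset.sum_filter]
      exact Finset.sum_subtype _ (fun x => by simp) _
    rw [h4, hm2]
    ring
  obtain ⟨j, hj⟩ : ∃ j : ℂ, MemLocalRing M j ∧ j = c * ((Nat.card Zs : ℂ) / (Nat.card P : ℂ)) := by
    refine ⟨_, ?_, rfl⟩
    haveI : Decidable (ψ = χ) := Classical.dec _
    have h1 : classInner (fpsi hM hmax χ ψ) (fun _ => 1) = if ψ = χ then 1 else 0 := by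
      rw [classInner_one]
      show (Nat.card P : ℂ)⁻¹ * ∑ x : P, NN hM hmax (x : G) (ψ : G → ℂ) (χ : G → ℂ) = _
      rw [sum_NN hM hmax hnil hψ hχ]
      split_ifs <;> simp
    have e : fpsi hM hmax χ ψ = h + (D - c • I) + c • I := by rw [hD]; abel
    have hI1 : classInner I (fun _ => 1) = (Nat.card Zs : ℂ) / (Nat.card P : ℂ) := by
      rw [classInner_one, div_eq_inv_mul]
      congr 1
      simp only [hI, Finset.sum_boole]
      rw [Nat.card_eq_fintype_card, Fintype.card_subtype]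
    rw [e, classInner_add_left, classInner_add_left, classInner_smul_left, hI1] at h1
    have h2 : MemLocalRing M (if ψ = χ then (1 : ℂ) else 0) := by
      split_ifs
      exacts [memLocalRing_one hM, memLocalRing_zero hM]
    rw [show c * ((Nat.card Zs : ℂ) / (Nat.card P : ℂ)) =
      (if ψ = χ then (1 : ℂ) else 0) + -(classInner h (fun _ => 1) + classInner (D - c • I) (fun _ => 1)) by
        rw [← h1]; ring]
    exact memLocalRing_add hM h2 (memLocalRing_neg (memLocalRing_add hM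
      (hhR.2 (oneChar : IrrCharacter P)) (hER.2 (oneChar : IrrCharacter P))))
  have e : fpsi hM hmax χ ψ = h + (D - c • I) + c • I := by rw [hD]; abel
  rw [e]
  refine (hhR.add hM hER).add hM ⟨fun a b => by simp only [Pi.smul_apply, hIc a b], fun θ => ?_⟩
  obtain ⟨m, hm⟩ := hIθ θ
  rw [classInner_smul_left, hm, ← mul_assoc, ← hj.2]
  exact memLocalRing_mul hM hj.1 (memLocalRing_natCast hM m)

/-- A member trivial on the central part is proportional to the chosen one on the regular elements. -/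
theorem prop_of_trivial {ψ : IrrCharacter G} (hψ : ψ ∈ B)
    (hψZ : ∀ z ∈ P, z ∈ Subgroup.center G → (ψ : G → ℂ) z = (ψ : G → ℂ) 1) {y : G} (hy : ¬ p ∣ orderOf y) :
    (ψ : G → ℂ) y = fpsi hM hmax χ ψ 1 * (χ : G → ℂ) y := by
  classical
  haveI : Fintype (IrrCharacter G) := @Fintype.ofFinite _ finite_irrCharacter
  set Zs : Subgroup P := (Subgroup.center G).subgroupOf P with hZs
  have hθZ : ∀ θ : IrrCharacter P, acoef hM hmax χ θ ψ ≠ 0 → ∀ z : P, z ∈ Zs → (θ : P → ℂ) z / (θ : P → ℂ) 1 = 1 := by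
    intro θ hθ z hz
    have h := (mul_eq_zero.1 (acoef_shift hM hmax χ hnil hχ hmin hχZ θ ψ hz)).resolve_right hθ
    rw [hψZ _ z.2 hz, div_self (apply_one_ne_zero ψ.2), one_mul, sub_eq_zero] at h
    have h2 := congrArg conj h
    rwa [Complex.conj_conj, map_one] at h2
  obtain ⟨θ, hθ1, hθe, -⟩ := exists_fpsi_eq hM hmax χ hnil hχ hmin hχZ hψ fun θ hθ φ => by
    by_cases h0 : acoef hM hmax χ θ φ = 0
    · exact Or.inl h0
    refine Or.inr (ro_of_trivial hM hmax χ hnil hχ hmin hχZ hw hwP hwχ hsmall hoff ?_ fun z hzP hzc => ?_)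
    · by_contra hφ
      refine h0 ?_
      rw [acoef, classInner_eq, Finset.sum_eq_zero, mul_zero]
      intro x _
      rw [fpsi, NN_eq_zero hM hmax hnil x.2 hφ (isClassFunction (isCharacter_of_irr χ.2)), zero_mul]
    · have h := (mul_eq_zero.1 (acoef_shift hM hmax χ hnil hχ hmin hχZ θ φ (z := ⟨z, hzP⟩) hzc)).resolve_right h0
      rw [hθZ θ hθ ⟨z, hzP⟩ hzc, map_one, mul_one, sub_eq_zero, div_eq_one_iff_eq (apply_one_ne_zero φ.2)] at h
      exact h
  set a := acoef hM hmax χ θ ψ with ha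
  have hconj : a * conj a = 1 := by rw [Complex.mul_conj', hθ1]; norm_num
  have hθ0 : a ≠ 0 := fun h0 => by rw [h0, norm_zero] at hθ1; exact zero_ne_one hθ1
  have hf : ∀ x : P, fpsi hM hmax χ ψ x = a * (θ : P → ℂ) x := fun x => congrFun hθe x
  set f1 := fpsi hM hmax χ ψ 1 with hf1
  set N1 := NN hM hmax (1 : G) (ψ : G → ℂ) (ψ : G → ℂ) with hN1
  have hterm : ∀ x : P, NN hM hmax (x : G) (ψ : G → ℂ) (ψ : G → ℂ) - (θ : P → ℂ) x * conj ((θ : P → ℂ) x) =
      if x ∈ Zs then N1 - (θ : P → ℂ) 1 * conj ((θ : P → ℂ) 1) else 0 := by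
    intro x
    split_ifs with hx
    · have h1 := NN_central hM hmax (show (x : G) ∈ Subgroup.center G from hx) x.2 P.one_mem ψ ψ
      rw [mul_one, hψZ _ x.2 hx, div_self (apply_one_ne_zero ψ.2), map_one, one_mul, one_mul] at h1
      rw [h1, hN1, (div_eq_one_iff_eq (apply_one_ne_zero θ.2)).1 (hθZ θ hθ0 x hx)]
    · rw [NN_self_of_prop hM hmax χ hnil hχ hmin hχZ x.2 (hoff x hx ψ), hf x, map_mul, sub_eq_zero]
      linear_combination ((θ : P → ℂ) x * conj ((θ : P → ℂ) x)) * hconj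
  have hsum : (Nat.card Zs : ℂ) * (N1 - (θ : P → ℂ) 1 * conj ((θ : P → ℂ) 1)) = 0 := by
    have h := Finset.sum_congr rfl fun x (_ : x ∈ (Finset.univ : Finset P)) => hterm x
    rw [Finset.sum_sub_distrib, sum_NN hM hmax hnil hψ hψ, sum_mul_conj θ θ, if_pos rfl, if_pos rfl, sub_self,
      Finset.sum_ite, Finset.sum_const_zero, add_zero, Finset.sum_const, nsmul_eq_mul] at h
    rw [Nat.card_eq_fintype_card, Fintype.card_subtype]
    exact h.symm
  have hN1f : N1 = f1 * conj f1 := by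
    have h1 := (mul_eq_zero.1 hsum).resolve_left (Nat.cast_ne_zero.2 Nat.card_pos.ne')
    rw [hf1, hf 1, map_mul]
    linear_combination h1 - ((θ : P → ℂ) 1 * conj ((θ : P → ℂ) 1)) * hconj
  set D := fun y : G => SV p (1 : G) (cf hM hmax 1) (ψ : G → ℂ) y - f1 * SV p (1 : G) (cf hM hmax 1) (χ : G → ℂ) y with hD
  have hD0 : ∑ y : G, D y * conj (D y) = 0 := by
    have hfac : (Nat.card ↥(P ⊓ cen (1 : G)) : ℂ) / (Nat.card (cen (1 : G)) : ℂ) ≠ 0 :=
      div_ne_zero (Nat.cast_ne_zero.2 Nat.card_pos.ne') (Nat.cast_ne_zero.2 Nat.card_pos.ne')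
    refine (mul_eq_zero.1 (?_ : (Nat.card ↥(P ⊓ cen (1 : G)) : ℂ) / (Nat.card (cen (1 : G)) : ℂ) * _ = 0)).resolve_left hfac
    have e : ∑ y : G, D y * conj (D y) = KS p (1 : G) (cf hM hmax 1) (ψ : G → ℂ) (ψ : G → ℂ)
        - conj f1 * KS p (1 : G) (cf hM hmax 1) (ψ : G → ℂ) (χ : G → ℂ)
        - f1 * KS p (1 : G) (cf hM hmax 1) (χ : G → ℂ) (ψ : G → ℂ)
        + f1 * conj f1 * KS p (1 : G) (cf hM hmax 1) (χ : G → ℂ) (χ : G → ℂ) := by
      simp only [KS, Finset.mul_sum, ← Finset.sum_sub_distrib, ← Finset.sum_add_distrib, hD, map_sub, map_mul]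
      exact Finset.sum_congr rfl fun y _ => by ring
    have hχχ := NN_self hM hmax hnil hχ hmin P.one_mem
    have hψχ : NN hM hmax (1 : G) (ψ : G → ℂ) (χ : G → ℂ) = f1 := rfl
    have hχψ : NN hM hmax (1 : G) (χ : G → ℂ) (ψ : G → ℂ) = conj f1 := by rw [← conj_NN, hψχ]
    rw [e]
    calc (Nat.card ↥(P ⊓ cen (1 : G)) : ℂ) / (Nat.card (cen (1 : G)) : ℂ) *
        (KS p (1 : G) (cf hM hmax 1) (ψ : G → ℂ) (ψ : G → ℂ)
          - conj f1 * KS p (1 : G) (cf hM hmax 1) (ψ : G → ℂ) (χ : G → ℂ)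
          - f1 * KS p (1 : G) (cf hM hmax 1) (χ : G → ℂ) (ψ : G → ℂ)
          + f1 * conj f1 * KS p (1 : G) (cf hM hmax 1) (χ : G → ℂ) (χ : G → ℂ))
        = N1 - conj f1 * NN hM hmax (1 : G) (ψ : G → ℂ) (χ : G → ℂ) - f1 * NN hM hmax (1 : G) (χ : G → ℂ) (ψ : G → ℂ)
          + f1 * conj f1 * NN hM hmax (1 : G) (χ : G → ℂ) (χ : G → ℂ) := by simp only [hN1, NN]; ring
      _ = 0 := by rw [hψχ, hχψ, hχχ, hN1f]; ring
  have hDy : D y = 0 := by
    simp only [Complex.mul_conj', ← Complex.ofReal_pow, ← Complex.ofReal_sum, Complex.ofReal_eq_zero] at hD0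
    have := (Finset.sum_eq_zero_iff_of_nonneg fun _ _ => by positivity).1 hD0 y (Finset.mem_univ _)
    exact norm_eq_zero.1 (pow_eq_zero_iff two_ne_zero |>.1 this)
  simp only [hD, sub_eq_zero] at hDy
  rwa [SV_of_center hM hmax hnil P.one_mem (Subgroup.one_mem _) hψ hy,
    SV_of_center hM hmax hnil P.one_mem (Subgroup.one_mem _) hχ hy, one_mul] at hDy

/-- Every member is proportional to the chosen one on the regular elements. -/
theorem exists_prop {φ : IrrCharacter G} (hφ : φ ∈ B) :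
    ∃ c : ℂ, ∀ y : G, ¬ p ∣ orderOf y → (φ : G → ℂ) y = c * (χ : G → ℂ) y := by
  classical
  haveI : Fintype B := Fintype.ofFinite _
  set Zs : Subgroup P := (Subgroup.center G).subgroupOf P with hZs
  set cc : B → ℂ := fun ψ => classInner (pRegularPart p (φ : G → ℂ)) ((ψ : IrrCharacter G) : G → ℂ) with hcc
  set S : B → ℂ := fun ψ => ∑ z : Zs, ((ψ : IrrCharacter G) : G → ℂ) ((z : P) : G) / ((ψ : IrrCharacter G) : G → ℂ) 1 with hS
  refine ⟨∑ ψ : B, cc ψ * S ψ * fpsi hM hmax χ (ψ : IrrCharacter G) 1, fun y hy => ?_⟩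
  have hexp : ∀ g : G, pRegularPart p (φ : G → ℂ) g = ∑ ψ : B, cc ψ * ((ψ : IrrCharacter G) : G → ℂ) g := fun g => by
    conv_lhs => rw [regularPart_expand hM hnil.1 hφ]
    rw [Finset.sum_apply]
    rfl
  have hz0 : ∀ z : Zs, pRegularPart p (φ : G → ℂ) (((z : P) : G) * y) = if z = 1 then (φ : G → ℂ) y else 0 := by
    intro z
    rw [pRegularPart_apply]
    have hzc : ((z : P) : G) ∈ Subgroup.center G := z.2
    split_ifs with h1 h2 h2
    · exfalso; subst h2; simp only [OneMemClass.coe_one, one_mul] at h1; exact hy h1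
    · rfl
    · rw [h2]; simp
    · exfalso
      refine h2 (Subtype.ext (Subtype.ext ?_))
      have hp1 : IsPPart p (((z : P) : G) * y) ((z : P) : G) :=
        ⟨y, rfl, (Subgroup.mem_center_iff.1 hzc y).symm, exists_orderOf_eq_of_mem hmax.1.1.1 (z : P).2, hy⟩
      have hp2 : IsPPart p (((z : P) : G) * y) 1 := ⟨_, one_mul _, Commute.one_left _, ⟨0, by simp⟩, h1⟩
      simpa using isPPart_unique hM.1 hp1 hp2
  have hsum : (φ : G → ℂ) y = ∑ ψ : B, cc ψ * S ψ * ((ψ : IrrCharacter G) : G → ℂ) y := by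
    calc (φ : G → ℂ) y = ∑ z : Zs, pRegularPart p (φ : G → ℂ) (((z : P) : G) * y) := by
          rw [Finset.sum_congr rfl fun z _ => hz0 z, Finset.sum_ite_eq' Finset.univ (1 : Zs)]; simp
      _ = ∑ z : Zs, ∑ ψ : B, cc ψ * (((ψ : IrrCharacter G) : G → ℂ) ((z : P) : G) /
            ((ψ : IrrCharacter G) : G → ℂ) 1) * ((ψ : IrrCharacter G) : G → ℂ) y := by
          refine Finset.sum_congr rfl fun z _ => ?_
          rw [hexp]
          refine Finset.sum_congr rfl fun ψ _ => ?_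
          have h := center_mul (ψ : IrrCharacter G).2 (show ((z : P) : G) ∈ Subgroup.center G from z.2) y
          field_simp [apply_one_ne_zero (ψ : IrrCharacter G).2]
          linear_combination (cc ψ) * h
      _ = _ := by
          rw [Finset.sum_comm]
          refine Finset.sum_congr rfl fun ψ _ => ?_
          simp only [hS, Finset.mul_sum, Finset.sum_mul]
  rw [hsum, Finset.sum_mul]
  refine Finset.sum_congr rfl fun ψ _ => ?_
  by_cases hψ : ∀ z ∈ P, z ∈ Subgroup.center G → ((ψ : IrrCharacter G) : G → ℂ) z = ((ψ : IrrCharacter G) : G → ℂ) 1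
  · rw [prop_of_trivial hM hmax χ hnil hχ hmin hχZ hw hwP hwχ hsmall hoff ψ.2 hψ hy]
    ring
  · push Not at hψ
    obtain ⟨z₀, hz₀P, hz₀c, hne⟩ := hψ
    have hS0 : S ψ = 0 := by
      have h : S ψ = ((ψ : IrrCharacter G) : G → ℂ) z₀ / ((ψ : IrrCharacter G) : G → ℂ) 1 * S ψ := by
        simp only [hS, Finset.mul_sum]
        refine (Fintype.sum_equiv (Equiv.mulLeft (⟨⟨z₀, hz₀P⟩, hz₀c⟩ : Zs)) _ _ fun z => ?_).symm
        simp only [Equiv.coe_mulLeft, Subgroup.coe_mul]
        have h := center_mul (ψ : IrrCharacter G).2 hz₀c ((z : P) : G)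
        field_simp [apply_one_ne_zero (ψ : IrrCharacter G).2]
        linear_combination -h
      by_contra h0
      exact hne ((div_eq_one_iff_eq (apply_one_ne_zero (ψ : IrrCharacter G).2)).1
        (mul_right_cancel₀ h0 (h.symm.trans (one_mul _).symm)))
    rw [hS0]
    ring

end Stage

/-- Nilpotent blocks have rank one. -/
theorem blockRank_eq_one_aux (hM : IsPModular p M) :
    ∀ (N : ℕ) (G : Type u) [Group G] [Fintype G], Nat.card G = N → ∀ B : Set (IrrCharacter G),
      IsNilpotentBlock p M B → blockRank p B = 1 := by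
  intro N
  induction N using Nat.strong_induction_on with
  | _ N ih =>
    intro G _ _ hN B hnil
    classical
    obtain ⟨P, hP⟩ := exists_defectGroup hM hnil.1
    obtain ⟨χ, hχ, hmin, hs, hχZ⟩ := exists_height_zero_trivial hM hnil.1 hP
    obtain ⟨e, hmax, w, hw, hwP, hwχ, hsmall⟩ := exists_good hM hnil hP hχ hs
    have hoff : ∀ x : P, (x : G) ∉ Subgroup.center G → ∀ (ψ : IrrCharacter G) (y : G),
        SV p (x : G) (cf hM hmax (x : G)) (ψ : G → ℂ) y =
          fpsi hM hmax χ ψ x * SV p (x : G) (cf hM hmax (x : G)) (χ : G → ℂ) y := by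
      intro x hx
      have hlt : Nat.card (cen (x : G)) < N := by
        rw [← hN]
        refine lt_of_le_of_ne (Subgroup.card_le_card_group _) fun h => hx (Subgroup.mem_center_iff.2 fun g => ?_)
        have htop : cen (x : G) = ⊤ := Subgroup.eq_top_of_card_eq _ h
        exact Subgroup.mem_centralizer_singleton_iff.1 (show g ∈ cen (x : G) by rw [htop]; exact Subgroup.mem_top g)
      exact SV_of_rank_one hM hmax hnil x.2 (ih _ hlt (cen (x : G)) rfl _ (belb_props hM hmax hnil x.2).2.1) hχ hmin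
    have hv : pRegularPart p (χ : G → ℂ) ≠ 0 := by
      intro h
      have := congrFun h 1
      rw [pRegularPart_apply, orderOf_one, if_neg hM.1.not_dvd_one] at this
      exact apply_one_ne_zero χ.2 this
    have hspan : Submodule.span ℂ ((fun φ : IrrCharacter G => pRegularPart p (φ : G → ℂ)) '' B) =
        ℂ ∙ pRegularPart p (χ : G → ℂ) := by
      refine le_antisymm (Submodule.span_le.2 ?_) (Submodule.span_mono (Set.singleton_subset_iff.2 ⟨χ, hχ, rfl⟩))
      rintro _ ⟨φ, hφ, rfl⟩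
      obtain ⟨c, hc⟩ := exists_prop hM hmax χ hnil hχ hmin hχZ hw hwP hwχ hsmall hoff hφ
      refine Submodule.mem_span_singleton.2 ⟨c, funext fun y => ?_⟩
      show (c • pRegularPart p (χ : G → ℂ)) y = pRegularPart p (φ : G → ℂ) y
      rw [Pi.smul_apply, pRegularPart_apply, pRegularPart_apply, smul_eq_mul]
      split_ifs with hy
      · rw [mul_zero]
      · exact (hc y hy).symm
    rw [blockRank, hspan]
    exact finrank_span_singleton hv

/-- Nilpotent blocks have rank one. -/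
theorem blockRank_eq_one (hM : IsPModular p M) {G : Type u} [Group G] [Fintype G] {B : Set (IrrCharacter G)}
    (hnil : IsNilpotentBlock p M B) : blockRank p B = 1 :=
  blockRank_eq_one_aux hM _ G rfl B hnil

end CfsgLib.NilBlock
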