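import Cfsg.Agent.Blocks.NilBlock.Sections
import Cfsg.Agent.Blocks.DefectGroup
import Cfsg.Agent.Blocks.DefectOne

/-!
# The contributions of the subsections of a nilpotent block
-/

set_option autoImplicit false
set_option linter.unusedSectionVars false
set_option linter.style.haveILetI false

namespace CfsgLib.NilBlock

open Cfsg CfsgLib.Blocks CfsgLib.CharBasics Polynomial
open scoped ComplexConjugate

attribute [local instance] CfsgLib.Blocks.residueField CfsgLib.Blocks.residue_charP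

universe u

variable {p : ℕ} [Fact p.Prime] {M : Ideal AlgInt} {G : Type u} [Group G] [Fintype G]

noncomputable local instance instFintypeSubgroupNilContrib (K : Subgroup G) : Fintype K := Fintype.ofFinite K

theorem coef_conj_of_mem {x : G} (b : Set (IrrCharacter (cen x))) {c : G} (hc : c ∈ cen x) (g : G) :
    coef x b (c * g * c⁻¹) = coef x b g := by
  classical
  simp only [coef, subgroupBlockCoeff]
  by_cases hg : g ∈ cen x
  · rw [dif_pos hg, dif_pos (mul_mem (mul_mem hc hg) (inv_mem hc))]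
    have h := isClassElt_blockElt b ⟨g, hg⟩ ⟨c, hc⟩
    simp only [coeff_blockElt] at h
    exact h
  · rw [dif_neg hg, dif_neg]
    intro h
    exact hg (by simpa [mul_assoc] using mul_mem (mul_mem (inv_mem hc) h) hc)

variable (hM : IsPModular p M) {B : Set (IrrCharacter G)} {P : Subgroup G}
  {e : Set (IrrCharacter (Subgroup.centralizer (P : Set G)))} (hmax : IsMaximalBrauerPair p M B P e)

/-- The chosen block below the maximal pair. -/
noncomputable def belb (x : G) : Set (IrrCharacter (cen x)) := by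
  classical exact if h : x ∈ P then (exists_bel hM hmax h).choose else ∅

/-- Its coefficient function. -/
noncomputable abbrev cf (x : G) : G → ℂ := coef x (belb hM hmax x)

/-- The contribution of two characters to the subsection below the maximal pair at `x`. -/
noncomputable def NN (x : G) (ψ φ : G → ℂ) : ℂ :=
  (Nat.card ↥(P ⊓ cen x) : ℂ) / (Nat.card (cen x) : ℂ) * KS p x (cf hM hmax x) ψ φ

theorem belb_spec {x : G} (hx : x ∈ P) : Bel hM P e x (belb hM hmax x) := by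
  simp only [belb, dif_pos hx]
  exact (exists_bel hM hmax hx).choose_spec

theorem cf_inner {w x : G} (hw : w ∈ P) (hx : x ∈ P) :
    cf hM hmax (w * x * w⁻¹) = fun h => cf hM hmax x (w⁻¹ * h * w) :=
  bel_inner hM hmax hw (belb_spec hM hmax hx) (belb_spec hM hmax (mul_mem (mul_mem hw hx) (inv_mem hw)))

theorem card_inf_cen_conj {w x : G} (hw : w ∈ P) :
    Nat.card ↥(P ⊓ cen (w * x * w⁻¹)) = Nat.card ↥(P ⊓ cen x) := by
  refine (Nat.card_congr
    { toFun := fun c : ↥(P ⊓ cen x) => (⟨w * c * w⁻¹, P.mul_mem (P.mul_mem hw c.2.1) (P.inv_mem hw),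
        (cenConj w x ⟨c, c.2.2⟩).2⟩ : ↥(P ⊓ cen (w * x * w⁻¹)))
      invFun := fun c => ⟨w⁻¹ * c * w, P.mul_mem (P.mul_mem (P.inv_mem hw) c.2.1) hw,
        ((cenConj w x).symm ⟨c, c.2.2⟩).2⟩
      left_inv := fun c => Subtype.ext (show w⁻¹ * (w * (c : G) * w⁻¹) * w = (c : G) by group)
      right_inv := fun c => Subtype.ext (show w * (w⁻¹ * (c : G) * w) * w⁻¹ = (c : G) by group) }).symm

theorem card_cen_conj (w x : G) : Nat.card (cen (w * x * w⁻¹)) = Nat.card (cen x) :=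
  (Nat.card_congr (cenConj w x).toEquiv).symm

theorem NN_inner {w x : G} (hw : w ∈ P) (hx : x ∈ P) {ψ φ : G → ℂ} (hψ : IsClassFunction G ψ)
    (hφ : IsClassFunction G φ) : NN hM hmax (w * x * w⁻¹) ψ φ = NN hM hmax x ψ φ := by
  rw [NN, NN, cf_inner hM hmax hw hx, KS_conj w x _ hψ hφ, card_inf_cen_conj hw, card_cen_conj]

theorem conj_NN (x : G) (ψ φ : G → ℂ) : conj (NN hM hmax x ψ φ) = NN hM hmax x φ ψ := by
  rw [NN, NN, map_mul, conj_KS, map_div₀, Complex.conj_natCast, Complex.conj_natCast]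

theorem cf_central {z x : G} (hz : z ∈ Subgroup.center G) (hzP : z ∈ P) (hx : x ∈ P) :
    cf hM hmax (z * x) = cf hM hmax x :=
  bel_central hM hmax hz hzP (belb_spec hM hmax hx) (belb_spec hM hmax (mul_mem hzP hx))

theorem NN_central {z x : G} (hz : z ∈ Subgroup.center G) (hzP : z ∈ P) (hx : x ∈ P) (ψ φ : IrrCharacter G) :
    NN hM hmax (z * x) (ψ : G → ℂ) (φ : G → ℂ) =
      (ψ : G → ℂ) z / (ψ : G → ℂ) 1 * conj ((φ : G → ℂ) z / (φ : G → ℂ) 1) *
        NN hM hmax x (ψ : G → ℂ) (φ : G → ℂ) := by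
  have hzp := exists_orderOf_eq_of_mem hmax.1.1.1 hzP
  have hK : KS p (z * x) (cf hM hmax x) (ψ : G → ℂ) (φ : G → ℂ) =
      (ψ : G → ℂ) z / (ψ : G → ℂ) 1 * conj ((φ : G → ℂ) z / (φ : G → ℂ) 1) *
        KS p x (cf hM hmax x) (ψ : G → ℂ) (φ : G → ℂ) := by
    rw [KS, KS, Finset.mul_sum]
    refine Finset.sum_congr rfl fun y _ => ?_
    rw [SV_central hz hzp x _ ψ y, SV_central hz hzp x _ φ y, map_mul]
    ring
  rw [NN, NN, cf_central hM hmax hz hzP hx, hK, cen_central_mul hz x]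
  ring

variable (hnil : IsNilpotentBlock p M B)
include hM hmax hnil

theorem belb_props {x : G} (hx : x ∈ P) :
    IsInducedBlock M (cen x) (belb hM hmax x) B ∧ IsNilpotentBlock p M (belb hM hmax x) ∧
      ∃ D : Subgroup (cen x), IsDefectGroup p M (belb hM hmax x) D ∧ Nat.card D = Nat.card ↥(P ⊓ cen x) :=
  (belb_spec hM hmax hx).props hM hmax hnil

theorem NN_eq_zero {x : G} (hx : x ∈ P) {ψ : IrrCharacter G} (hψ : ψ ∉ B) {φ : G → ℂ} (hφ : IsClassFunction G φ) :
    NN hM hmax x (ψ : G → ℂ) φ = 0 := by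
  have hxp := exists_orderOf_eq_of_mem hmax.1.1.1 hx
  rw [NN, KS_eq_sum_secVal x _ (isClassFunction (isCharacter_of_irr ψ.2)) hφ, Finset.sum_eq_zero, mul_zero]
  intro y _
  rw [secVal_eq_zero_of_notMem' hM hxp (belb_props hM hmax hnil hx).1 hψ, zero_mul]

/-- The contributions are values of the contribution polynomials. -/
theorem exists_NN_poly {x : G} (hx : x ∈ P) :
    ∃ ξ₀ ∈ belb hM hmax x, (∀ ρ ∈ belb hM hmax x, degExp p ξ₀ ≤ degExp p ρ) ∧ orderOf x ∣ Nat.card P ∧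
      p ^ ((Nat.card (cen x)).factorization p - degExp p ξ₀) = Nat.card ↥(P ⊓ cen x) ∧
      ∀ ψ φ : IrrCharacter G, aeval (zetaRoot (Nat.card P))
        (contribPoly p (Nat.card P) x (belb hM hmax x) (degExp p ξ₀) ψ φ) =
          NN hM hmax x (ψ : G → ℂ) (φ : G → ℂ) := by
  obtain ⟨hind, -, D, hD, hcard⟩ := belb_props hM hmax hnil hx
  obtain ⟨ξ₀, h₀, hmin₀, hs⟩ := exists_min_degExp hM hind.1
  have hN : orderOf x ∣ Nat.card P := by
    have h := orderOf_dvd_natCard (⟨x, hx⟩ : P)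
    rwa [Subgroup.orderOf_mk] at h
  have hpow : p ^ ((Nat.card (cen x)).factorization p - degExp p ξ₀) = Nat.card ↥(P ⊓ cen x) := by
    rw [← hcard, card_defectGroup hM hind.1 hD, blockDefect_eq hs]
  refine ⟨ξ₀, h₀, hmin₀, hN, hpow, fun ψ φ => ?_⟩
  rw [aeval_contribPoly hM Nat.card_pos.ne' hN hmin₀, NN,
    KS_eq_sum_secVal x _ (isClassFunction (isCharacter_of_irr ψ.2)) (isClassFunction (isCharacter_of_irr φ.2)),
    ← hpow, Nat.cast_pow]

/-- The only block at a central element. -/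
theorem eq_belb_of_center {x : G} (hx : x ∈ P) (hxc : x ∈ Subgroup.center G) {b : Set (IrrCharacter (cen x))}
    (hind : IsInducedBlock M (cen x) b B) : b = belb hM hmax x := by
  obtain ⟨g, b', hb', hco⟩ := exists_conj_bel hM hmax (exists_orderOf_eq_of_mem hmax.1.1.1 hx) hind.1 hnil.1 hind
  have hgx : g * x * g⁻¹ = x := by rw [Subgroup.mem_center_iff.1 hxc g, mul_inv_cancel_right]
  have h := Bel.coef_eq hM hmax hb' (belb_spec hM hmax hx) hgx
  rw [hco] at h
  refine eq_of_coef_eq hM hind.1 (belb_props hM hmax hnil hx).1.1 ?_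
  funext k
  have hg : g ∈ cen x := Subgroup.mem_centralizer_singleton_iff.2 (Subgroup.mem_center_iff.1 hxc g)
  show coef x b k = coef x (belb hM hmax x) k
  rw [← congrFun h k]
  show _ = coef x b (g⁻¹ * k * g)
  conv_rhs => rw [show g⁻¹ * k * g = g⁻¹ * k * g⁻¹⁻¹ by group, coef_conj_of_mem b (inv_mem hg)]

/-- At a central element the whole value is the contribution. -/
theorem SV_of_center {x : G} (hx : x ∈ P) (hxc : x ∈ Subgroup.center G) {ψ : IrrCharacter G} (hψ : ψ ∈ B)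
    {y : G} (hy : ¬ p ∣ orderOf y) : SV p x (cf hM hmax x) (ψ : G → ℂ) y = (ψ : G → ℂ) (x * y) := by
  classical
  have hyc : y ∈ cen x := Subgroup.mem_centralizer_singleton_iff.2 (Subgroup.mem_center_iff.1 hxc y)
  haveI : Fintype (IrrCharacter (cen x)) := @Fintype.ofFinite _ finite_irrCharacter
  have hxp := exists_orderOf_eq_of_mem hmax.1.1.1 hx
  have hy' : ¬ p ∣ orderOf (⟨y, hyc⟩ : cen x) := by rwa [Subgroup.orderOf_mk]
  have h := apply_eq_sum_secVal hM hxp hnil.1 ψ hy'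
  rw [if_pos hψ] at h
  rw [← h, Finset.sum_eq_single (belb hM hmax x)]
  · exact (secVal_eq_SV x _ (isClassFunction (isCharacter_of_irr ψ.2)) ⟨y, hyc⟩).symm
  · intro b hb hne
    exact absurd (eq_belb_of_center hM hmax hnil hx hxc (Finset.mem_filter.1 hb).2) hne
  · intro hn
    exact absurd (Finset.mem_filter.2 ⟨mem_blockFinset.2 (belb_props hM hmax hnil hx).1.1,
      (belb_props hM hmax hnil hx).1⟩) hn

/-- The section of a member of the block splits over the blocks inducing it. -/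
theorem sum_section_split {x : G} (hxp : ∃ k : ℕ, orderOf x = p ^ k) [Fintype (IrrCharacter (cen x))]
    [DecidablePred fun b : Set (IrrCharacter (cen x)) => IsInducedBlock M (cen x) b B]
    {ψ φ : IrrCharacter G} (hψ : ψ ∈ B) (hφ : φ ∈ B) :
    (∑ y : cen x, if p ∣ orderOf y then 0 else (ψ : G → ℂ) (x * y) * conj ((φ : G → ℂ) (x * y))) =
      ∑ b ∈ (blockFinset M (cen x)).filter (fun b => IsInducedBlock M (cen x) b B),
        KS p x (coef x b) (ψ : G → ℂ) (φ : G → ℂ) := by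
  classical
  set s := (blockFinset M (cen x)).filter (fun b => IsInducedBlock M (cen x) b B) with hs
  have e : ∀ y : cen x, (if p ∣ orderOf y then 0 else (ψ : G → ℂ) (x * y) * conj ((φ : G → ℂ) (x * y))) =
      ∑ b ∈ s, ∑ b' ∈ s, secVal p x b (ψ : G → ℂ) y * conj (secVal p x b' (φ : G → ℂ) y) := by
    intro y
    rw [← Finset.sum_mul_sum, ← map_sum]
    split_ifs with hy
    · simp [secVal, hy]
    · rw [hs, apply_eq_sum_secVal hM hxp hnil.1 ψ hy, apply_eq_sum_secVal hM hxp hnil.1 φ hy, if_pos hψ, if_pos hφ]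
  rw [Finset.sum_congr rfl fun y _ => e y, Finset.sum_comm]
  refine Finset.sum_congr rfl fun b hb => ?_
  rw [Finset.sum_comm, Finset.sum_eq_single b,
    KS_eq_sum_secVal x b (isClassFunction (isCharacter_of_irr ψ.2)) (isClassFunction (isCharacter_of_irr φ.2))]
  · intro b' hb' hne
    exact sum_secVal_cross hM (mem_blockFinset.1 (Finset.mem_filter.1 hb).1)
      (mem_blockFinset.1 (Finset.mem_filter.1 hb').1) (Ne.symm hne) _ _
  · exact fun hn => absurd hb hn

/-- The contributions of all elements of the defect group sum to the inner product. -/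
theorem sum_NN {ψ φ : IrrCharacter G} (hψ : ψ ∈ B) (hφ : φ ∈ B) [Decidable (ψ = φ)] :
    ∑ x : P, NN hM hmax (x : G) (ψ : G → ℂ) (φ : G → ℂ) = if ψ = φ then (Nat.card P : ℂ) else 0 := by
  classical
  haveI : ∀ x : G, Fintype (IrrCharacter (cen x)) := fun x => @Fintype.ofFinite _ finite_irrCharacter
  set S := Finset.univ.filter (fun x : G => ∃ k : ℕ, orderOf x = p ^ k) with hSdef
  set ind := fun x : G => (blockFinset M (cen x)).filter (fun b => IsInducedBlock M (cen x) b B) with hinddef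
  set T := S.sigma ind with hT
  set ι : (Σ x : G, Set (IrrCharacter (cen x))) → G × (G → ℂ) := fun t => (t.1, coef t.1 t.2) with hι
  have hP := hmax.1.1.1
  have hψc := isClassFunction (isCharacter_of_irr ψ.2)
  have hφc := isClassFunction (isCharacter_of_irr φ.2)
  set U := T.image ι with hU
  have h1 : (if ψ = φ then (Nat.card G : ℂ) else 0) = ∑ t ∈ U, KS p t.1 t.2 (ψ : G → ℂ) (φ : G → ℂ) := by
    rw [← sum_mul_conj ψ φ, sum_by_sections (Fact.out : p.Prime) _ S (fun x => by simp [hSdef]),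
      Finset.sum_congr rfl (fun x hx => sum_section_split hM hmax hnil (Finset.mem_filter.1 hx).2 hψ hφ),
      ← Finset.sum_sigma S ind (fun t => KS p t.1 (coef t.1 t.2) (ψ : G → ℂ) (φ : G → ℂ)), hU, Finset.sum_image]
    rintro ⟨x, b⟩ hb ⟨x', b'⟩ hb' he
    simp only [hι, Prod.mk.injEq] at he
    obtain ⟨rfl, he⟩ := he
    simp only [hT, Finset.coe_sigma, Set.mem_sigma_iff, Finset.mem_coe, hinddef, Finset.mem_filter] at hb hb'
    rw [eq_of_coef_eq hM hb.2.2.1 hb'.2.2.1 he]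
  set Ψ : G × P → G × (G → ℂ) := fun t =>
    (t.1 * t.2 * t.1⁻¹, fun k => cf hM hmax t.2 (t.1⁻¹ * k * t.1)) with hΨ
  have hmaps : ∀ t ∈ (Finset.univ : Finset (G × P)), Ψ t ∈ U := by
    rintro ⟨g, x, hx⟩ -
    obtain ⟨b', hb', he, hco⟩ := exists_conj_block hM g x (belb_props hM hmax hnil hx).1.1
    have hxp := exists_orderOf_eq_of_mem hP hx
    have hxp' : ∃ k : ℕ, orderOf (g * x * g⁻¹) = p ^ k := by
      obtain ⟨k, hk⟩ := hxp
      exact ⟨k, by rw [← hk]; exact (MulAut.conj g).orderOf_eq x⟩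
    have hof := ((induced_iff_ofBlk hM hxp (belb_props hM hmax hnil hx).1.1 hnil.1).1
      (belb_props hM hmax hnil hx).1).cj g
    rw [cm_zpowers, ← he] at hof
    refine Finset.mem_image.2 ⟨⟨g * x * g⁻¹, b'⟩, Finset.mem_sigma.2 ⟨Finset.mem_filter.2 ⟨Finset.mem_univ _, hxp'⟩,
      Finset.mem_filter.2 ⟨mem_blockFinset.2 hb', (induced_iff_ofBlk hM hxp' hb' hnil.1).2 hof⟩⟩, ?_⟩
    simp only [hι, hΨ, hco]
  set wt : P → ℂ := fun x => (Nat.card ↥(P ⊓ cen (x : G)) : ℂ) / ((Nat.card P : ℂ) * (Nat.card (cen (x : G)) : ℂ)) with hwt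
  have hfib : ∀ t ∈ U, (∑ s ∈ Finset.univ.filter (fun s : G × P => Ψ s = t), wt s.2) = 1 := by
    intro t ht
    obtain ⟨⟨x, b⟩, hb, rfl⟩ := Finset.mem_image.1 ht
    simp only [hT, Finset.mem_sigma, hSdef, hinddef, Finset.mem_filter] at hb
    obtain ⟨g₀, b₀, hb₀, hco⟩ := exists_conj_bel hM hmax hb.1.2 hb.2.2.1 hnil.1 hb.2.2
    set u : G := g₀ * x * g₀⁻¹ with hu
    have huP : u ∈ P := hb₀.1
    have hcf : cf hM hmax u = fun k => coef x b (g₀⁻¹ * k * g₀) :=
      (Bel.coef_eq hM hmax (belb_spec hM hmax huP) hb₀ rfl).trans hco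
    set g := g₀⁻¹ with hg
    have hxu : g * u * g⁻¹ = x := by rw [hu, hg]; group
    have hxb : coef x b = fun k => cf hM hmax u (g⁻¹ * k * g) := by
      funext k
      rw [hcf, hg]
      simp [mul_assoc]
    set F := Finset.univ.filter (fun s : G × P => Ψ s = ι ⟨x, b⟩) with hF
    let Φ : P × cen u → G × P := fun r => (g * (r.2 : G) * (r.1 : G)⁻¹,
      ⟨(r.1 : G) * u * (r.1 : G)⁻¹, mul_mem (mul_mem r.1.2 huP) (inv_mem r.1.2)⟩)
    have hΦF : ∀ r ∈ (Finset.univ : Finset (P × cen u)), Φ r ∈ F := by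
      rintro ⟨w, c⟩ -
      refine Finset.mem_filter.2 ⟨Finset.mem_univ _, ?_⟩
      have hc : (c : G) * u = u * c := Subgroup.mem_centralizer_singleton_iff.1 c.2
      simp only [hΨ, hι, Φ, Prod.mk.injEq]
      refine ⟨?_, ?_⟩
      · rw [← hxu]
        calc g * (c : G) * (w : G)⁻¹ * ((w : G) * u * (w : G)⁻¹) * (g * (c : G) * (w : G)⁻¹)⁻¹
            = g * ((c : G) * u) * (c : G)⁻¹ * g⁻¹ := by group
          _ = _ := by rw [hc]; group
      · rw [cf_inner hM hmax w.2 huP, hxb]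
        funext k
        show coef u (belb hM hmax u) _ = coef u (belb hM hmax u) _
        rw [← coef_conj_of_mem (belb hM hmax u) c.2]
        congr 1
        group
    have hsurj : ∀ s ∈ F, ∃ r, Φ r = s := by
      rintro ⟨g', u', hu'⟩ hs
      have hs' := (Finset.mem_filter.1 hs).2
      simp only [hΨ, hι, Prod.mk.injEq] at hs'
      obtain ⟨h1', h2'⟩ := hs'
      have hconj : (g'⁻¹ * g) * u * (g'⁻¹ * g)⁻¹ = u' := by
        calc (g'⁻¹ * g) * u * (g'⁻¹ * g)⁻¹ = g'⁻¹ * (g * u * g⁻¹) * g' := by group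
          _ = g'⁻¹ * (g' * u' * g'⁻¹) * g' := by rw [hxu, h1']
          _ = u' := by group
      obtain ⟨w, hw, hwu⟩ := bel_conj hM hmax hnil hconj (belb_spec hM hmax huP) (belb_spec hM hmax hu') (by
        funext k
        have h3 := congrFun (h2'.trans hxb) (g' * k * g'⁻¹)
        simp only [show g'⁻¹ * (g' * k * g'⁻¹) * g' = k by group] at h3
        show cf hM hmax u' k = _
        rw [h3]
        congr 1
        group)
      refine ⟨(⟨w, hw⟩, ⟨g⁻¹ * g' * w, Subgroup.mem_centralizer_singleton_iff.2 ?_⟩), ?_⟩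
      · calc g⁻¹ * g' * w * u = g⁻¹ * (g' * (w * u * w⁻¹) * g'⁻¹) * g' * w := by group
          _ = g⁻¹ * (g * u * g⁻¹) * g' * w := by rw [hwu, h1', hxu]
          _ = _ := by group
      · simp only [Φ, Prod.mk.injEq]
        exact ⟨by group, Subtype.ext hwu⟩
    have hwtF : ∀ s ∈ F, wt s.2 = wt ⟨u, huP⟩ := by
      intro s hs
      obtain ⟨r, rfl⟩ := hsurj s hs
      simp only [hwt, Φ, card_inf_cen_conj r.1.2, card_cen_conj]
    have hcount : Nat.card P * Nat.card (cen u) = F.card * Nat.card ↥(P ⊓ cen u) := by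
      rw [Nat.card_eq_fintype_card (α := P), Nat.card_eq_fintype_card (α := cen u), ← Fintype.card_prod,
        ← Finset.card_univ, Finset.card_eq_sum_card_fiberwise hΦF, ← smul_eq_mul, ← Finset.sum_const]
      refine Finset.sum_congr rfl fun s hs => ?_
      obtain ⟨⟨w₀, c₀⟩, rfl⟩ := hsurj s hs
      rw [Nat.card_eq_fintype_card, ← Finset.card_univ]
      refine (Finset.card_bij (fun (t : ↥(P ⊓ cen u)) _ =>
        ((⟨(w₀ : G) * t, mul_mem w₀.2 t.2.1⟩, ⟨(c₀ : G) * t, mul_mem c₀.2 t.2.2⟩) : P × cen u)) ?_ ?_ ?_).symm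
      · intro t _
        have ht : (t : G) * u = u * t := Subgroup.mem_centralizer_singleton_iff.1 t.2.2
        refine Finset.mem_filter.2 ⟨Finset.mem_univ _, Prod.ext ?_ (Subtype.ext ?_)⟩
        · simp only [Φ]; group
        · show (w₀ : G) * t * u * ((w₀ : G) * t)⁻¹ = (w₀ : G) * u * (w₀ : G)⁻¹
          rw [mul_assoc (w₀ : G) (t : G) u, ht]; group
      · intro a _ a' _ h
        simp only [Prod.mk.injEq, Subtype.mk.injEq, mul_right_inj] at h
        exact Subtype.ext h.1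
      · rintro ⟨w, c⟩ hr
        have hr' := (Finset.mem_filter.1 hr).2
        simp only [Φ, Prod.mk.injEq, Subtype.mk.injEq] at hr'
        obtain ⟨h4, h5⟩ := hr'
        have h6 : (c₀ : G)⁻¹ * c = (w₀ : G)⁻¹ * w := by
          have h7 : (c : G) * (w : G)⁻¹ = (c₀ : G) * (w₀ : G)⁻¹ := by
            rw [mul_assoc, mul_assoc] at h4; exact mul_left_cancel h4
          calc (c₀ : G)⁻¹ * c = (c₀ : G)⁻¹ * ((c : G) * (w : G)⁻¹) * w := by group
            _ = _ := by rw [h7]; group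
        refine ⟨⟨(w₀ : G)⁻¹ * w, P.mul_mem (P.inv_mem w₀.2) w.2, h6 ▸ (cen u).mul_mem ((cen u).inv_mem c₀.2) c.2⟩, Finset.mem_univ _,
          Prod.ext (Subtype.ext ?_) (Subtype.ext ?_)⟩
        · show (w₀ : G) * ((w₀ : G)⁻¹ * w) = w
          group
        · show (c₀ : G) * ((w₀ : G)⁻¹ * w) = c
          rw [← h6]; group
    rw [Finset.sum_congr rfl hwtF, Finset.sum_const, nsmul_eq_mul]
    simp only [hwt]
    have h8 : (Nat.card P : ℂ) ≠ 0 := Nat.cast_ne_zero.2 Nat.card_pos.ne'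
    have h9 : (Nat.card (cen u) : ℂ) ≠ 0 := Nat.cast_ne_zero.2 Nat.card_pos.ne'
    field_simp
    exact_mod_cast hcount.symm
  have h2 : ∑ t ∈ U, KS p t.1 t.2 (ψ : G → ℂ) (φ : G → ℂ) =
      (Nat.card G : ℂ) / (Nat.card P : ℂ) * ∑ x : P, NN hM hmax (x : G) (ψ : G → ℂ) (φ : G → ℂ) := by
    calc ∑ t ∈ U, KS p t.1 t.2 (ψ : G → ℂ) (φ : G → ℂ)
        = ∑ t ∈ U, ∑ s ∈ Finset.univ.filter (fun s : G × P => Ψ s = t),
            wt s.2 * KS p (Ψ s).1 (Ψ s).2 (ψ : G → ℂ) (φ : G → ℂ) := Finset.sum_congr rfl fun t ht => by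
          rw [Finset.sum_congr rfl fun s hs => by rw [(Finset.mem_filter.1 hs).2], ← Finset.sum_mul, hfib t ht, one_mul]
      _ = ∑ s : G × P, wt s.2 * KS p (Ψ s).1 (Ψ s).2 (ψ : G → ℂ) (φ : G → ℂ) :=
          Finset.sum_fiberwise_of_maps_to hmaps _
      _ = ∑ _g : G, ∑ x : P, (Nat.card P : ℂ)⁻¹ * NN hM hmax (x : G) (ψ : G → ℂ) (φ : G → ℂ) := by
          rw [Fintype.sum_prod_type]
          refine Finset.sum_congr rfl fun g _ => Finset.sum_congr rfl fun x _ => ?_
          simp only [hΨ, KS_conj g (x : G) _ hψc hφc, hwt, NN]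
          ring
      _ = _ := by
          rw [Finset.sum_const, Finset.card_univ, ← Nat.card_eq_fintype_card, nsmul_eq_mul, ← Finset.mul_sum]
          ring
  have hG : (Nat.card G : ℂ) ≠ 0 := Nat.cast_ne_zero.2 Nat.card_pos.ne'
  have hP0 : (Nat.card P : ℂ) ≠ 0 := Nat.cast_ne_zero.2 Nat.card_pos.ne'
  rw [h2] at h1
  split_ifs at h1 ⊢ <;> field_simp at h1
  · exact h1.symm
  · exact (mul_eq_zero.1 (h1.symm.trans (zero_mul _))).resolve_left hG

/-- The contributions of the block are orthogonal. -/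
theorem orth_NN [Fintype (IrrCharacter G)] {x x' : G} (hx : x ∈ P) (hx' : x' ∈ P) (χ : IrrCharacter G)
    [Decidable (∃ w ∈ P, w * x * w⁻¹ = x')] :
    ∑ ψ : IrrCharacter G, NN hM hmax x (ψ : G → ℂ) (χ : G → ℂ) * conj (NN hM hmax x' (ψ : G → ℂ) (χ : G → ℂ)) =
      if ∃ w ∈ P, w * x * w⁻¹ = x' then
        (Nat.card ↥(P ⊓ cen x) : ℂ) * NN hM hmax x (χ : G → ℂ) (χ : G → ℂ) else 0 := by
  classical
  have hcl : ∀ ψ : IrrCharacter G, IsClassFunction G (ψ : G → ℂ) := fun ψ => isClassFunction (isCharacter_of_irr ψ.2)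
  split_ifs with hw
  · obtain ⟨w, hw, rfl⟩ := hw
    simp only [NN_inner hM hmax hw hx (hcl _) (hcl χ)]
    obtain ⟨ξ₀, -, hmin₀, hN, hpow, hNN⟩ := exists_NN_poly hM hmax hnil hx
    have h := sum_contrib_mul hM (exists_orderOf_eq_of_mem hmax.1.1.1 hx) (belb_props hM hmax hnil hx).1.1
      Nat.card_pos.ne' hN hmin₀ (Nat.coprime_one_left _) χ χ
    simp only [pow_one, hNN] at h
    rw [← hpow, Nat.cast_pow, ← h]
    exact Finset.sum_congr rfl fun ψ _ => by rw [conj_NN, mul_comm]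
  · have hxp := exists_orderOf_eq_of_mem hmax.1.1.1 hx
    have hxp' := exists_orderOf_eq_of_mem hmax.1.1.1 hx'
    have key : ∀ y y' : G, ∑ ψ : IrrCharacter G,
        SV p x (cf hM hmax x) (ψ : G → ℂ) y * conj (SV p x' (cf hM hmax x') (ψ : G → ℂ) y') = 0 := by
      intro y y'
      by_cases hy : Commute x y
      swap
      · exact Finset.sum_eq_zero fun ψ _ => by rw [SV_of_not (Or.inr hy), zero_mul]
      by_cases hy' : Commute x' y'
      swap
      · exact Finset.sum_eq_zero fun ψ _ => by rw [SV_of_not (y := y') (Or.inr hy'), map_zero, mul_zero]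
      have hym : y ∈ cen x := Subgroup.mem_centralizer_singleton_iff.2 hy.symm
      have hy'm : y' ∈ cen x' := Subgroup.mem_centralizer_singleton_iff.2 hy'.symm
      by_cases hcx : IsConj x x'
      · obtain ⟨h, hh⟩ := isConj_iff.1 hcx
        obtain ⟨c, hc, -, hcc⟩ := exists_conj_block hM h⁻¹ x' (belb_props hM hmax hnil hx').1.1
        have hx0 : h⁻¹ * x' * h⁻¹⁻¹ = x := by rw [← hh]; group
        obtain ⟨c', -, hc'c, hc'b, -, -, -⟩ := exists_transfer hM (congrArg cen hx0) c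
        have hc' : coef x c' = fun k => cf hM hmax x' (h⁻¹⁻¹ * k * h⁻¹) := hc'c.trans hcc
        have hne : belb hM hmax x ≠ c' := by
          intro heq
          refine hw (bel_conj hM hmax hnil hh (belb_spec hM hmax hx) (belb_spec hM hmax hx') (funext fun k => ?_))
          rw [heq, hc']
          show _ = cf hM hmax x' (h⁻¹⁻¹ * (h⁻¹ * k * h) * h⁻¹)
          congr 1
          group
        have e : ∀ ψ : IrrCharacter G, SV p x' (cf hM hmax x') (ψ : G → ℂ) y' =
            SV p x (coef x c') (ψ : G → ℂ) (h⁻¹ * y' * h⁻¹⁻¹) := fun ψ => by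
          rw [← SV_conj h⁻¹ x' _ (hcl ψ) y', hx0, hc']
        have hym2 : h⁻¹ * y' * h⁻¹⁻¹ ∈ cen x :=
          congrArg cen hx0 ▸ (cenConj h⁻¹ x' ⟨y', hy'm⟩).2
        simp only [e, show ∀ ψ : IrrCharacter G, SV p x (coef x c') (ψ : G → ℂ) (h⁻¹ * y' * h⁻¹⁻¹) =
          secVal p x c' (ψ : G → ℂ) ⟨_, hym2⟩ from fun ψ => (secVal_eq_SV x c' (hcl ψ) ⟨_, hym2⟩).symm,
          show ∀ ψ : IrrCharacter G, SV p x (cf hM hmax x) (ψ : G → ℂ) y =
          secVal p x (belb hM hmax x) (ψ : G → ℂ) ⟨_, hym⟩ from fun ψ => (secVal_eq_SV x _ (hcl ψ) ⟨_, hym⟩).symm]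
        exact sum_irr_secVal_cross hM hxp (belb_props hM hmax hnil hx).1.1 (hc'b hc) hne _ _
      · simp only [show ∀ ψ : IrrCharacter G, SV p x' (cf hM hmax x') (ψ : G → ℂ) y' =
          secVal p x' (belb hM hmax x') (ψ : G → ℂ) ⟨_, hy'm⟩ from fun ψ => (secVal_eq_SV x' _ (hcl ψ) ⟨_, hy'm⟩).symm,
          show ∀ ψ : IrrCharacter G, SV p x (cf hM hmax x) (ψ : G → ℂ) y =
          secVal p x (belb hM hmax x) (ψ : G → ℂ) ⟨_, hym⟩ from fun ψ => (secVal_eq_SV x _ (hcl ψ) ⟨_, hym⟩).symm]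
        exact sum_irr_secVal_of_not_isConj hM hxp hxp' hcx (belb_props hM hmax hnil hx).1.1
          (belb_props hM hmax hnil hx').1.1 _ _
    simp only [NN, KS, map_mul, map_sum, Complex.conj_conj, map_div₀, Complex.conj_natCast, Finset.mul_sum,
      Finset.sum_mul]
    rw [Finset.sum_comm]
    refine Finset.sum_eq_zero fun y' _ => ?_
    rw [Finset.sum_comm]
    refine Finset.sum_eq_zero fun y _ => ?_
    rw [show ∀ f : IrrCharacter G → ℂ, ∑ ψ : IrrCharacter G, f ψ = ∑ ψ : IrrCharacter G, f ψ from fun f => rfl]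
    trans ((Nat.card ↥(P ⊓ cen x) : ℂ) / (Nat.card (cen x) : ℂ)) * ((Nat.card ↥(P ⊓ cen x') : ℂ) / (Nat.card (cen x') : ℂ)) *
        conj (SV p x (cf hM hmax x) (χ : G → ℂ) y) * SV p x' (cf hM hmax x') (χ : G → ℂ) y' *
        ∑ ψ : IrrCharacter G, SV p x (cf hM hmax x) (ψ : G → ℂ) y * conj (SV p x' (cf hM hmax x') (ψ : G → ℂ) y')
    · rw [Finset.mul_sum]; exact Finset.sum_congr rfl fun ψ _ => by ring
    · rw [key, mul_zero]

/-- A member of height zero has all its contributions equal to one. -/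
theorem NN_self {χ : IrrCharacter G} (hχ : χ ∈ B) (hmin : ∀ ρ ∈ B, degExp p χ ≤ degExp p ρ) {x : G} (hx : x ∈ P) :
    NN hM hmax x (χ : G → ℂ) (χ : G → ℂ) = 1 := by
  classical
  haveI : Fintype (IrrCharacter G) := @Fintype.ofFinite _ finite_irrCharacter
  obtain ⟨d, hd⟩ := IsPGroup.iff_card.1 hmax.1.1.1
  set N := Nat.card P with hN
  have hN0 : N ≠ 0 := Nat.card_pos.ne'
  have hz := zetaRoot_prim hN0
  choose ξ₀ h₀ hmin₀ hxN hpow hNN using fun x : P => exists_NN_poly hM hmax hnil x.2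
  set Q : P → ℤ[X] := fun x => contribPoly p N (x : G) (belb hM hmax x) (degExp p (ξ₀ x)) χ χ with hQ
  have hone : ∀ j ∈ coprimeResidues N, (zetaRoot N ^ j) ^ N = 1 := fun j _ => by
    rw [← pow_mul, mul_comm, pow_mul, hz.pow_eq_one, one_pow]
  set a : P → ℕ → ℝ := fun x j => (aeval (zetaRoot N ^ j) (Q x)).re with ha
  have hreal : ∀ x : P, ∀ j ∈ coprimeResidues N, aeval (zetaRoot N ^ j) (Q x) = (a x j : ℂ) := fun x j hj =>
    (Complex.conj_eq_iff_re.1 (conj_contrib hM.1 hN0 _ _ χ χ (hone j hj))).symm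
  have hne : ∀ x : P, ∀ j ∈ coprimeResidues N, aeval (zetaRoot N ^ j) (Q x) ≠ 0 := by
    intro x j hj h0
    have hz' : (zetaRoot (p ^ d) ^ j) ^ p ^ d = 1 := by rw [← hd]; exact hone j hj
    refine contrib_not_mem hM (belb_props hM hmax hnil x.2).1 hχ hmin hχ hmin (h₀ x) (hmin₀ x) hz' ?_
    simp only [hQ, hd] at h0
    rw [h0]
    exact memLocalIdeal_zero hM
  have hpos : ∀ x : P, ∀ j ∈ coprimeResidues N, 0 < a x j := by
    intro x j hj
    have h := sum_normSq_contrib hM (exists_orderOf_eq_of_mem hmax.1.1.1 x.2) (belb_props hM hmax hnil x.2).1.1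
      hN0 (hxN x) (hmin₀ x) (Finset.mem_filter.1 hj).2 χ
    have h2 : (0 : ℝ) < ∑ ψ : IrrCharacter G, ‖aeval (zetaRoot N ^ j)
        (contribPoly p N (x : G) (belb hM hmax x) (degExp p (ξ₀ x)) χ ψ)‖ ^ 2 :=
      Finset.sum_pos' (fun _ _ => by positivity) ⟨χ, Finset.mem_univ _, pow_pos (norm_pos_iff.2 (hne x j hj)) 2⟩
    rw [h] at h2
    exact (pos_iff_pos_of_mul_pos h2).1 (by exact_mod_cast pow_pos hM.1.pos _)
  have hsum : ∀ j ∈ coprimeResidues N, ∑ x : P, a x j = N := by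
    intro j hj
    have h := aeval_conjugate_eq_zero hN0 (Q := (∑ x : P, Q x) - C (N : ℤ)) ?_ (Finset.mem_filter.1 hj).2
    · rw [map_sub, map_sum, sub_eq_zero, Finset.sum_congr rfl (fun x _ => hreal x j hj)] at h
      simp only [eq_intCast, map_natCast, Int.cast_natCast] at h
      exact_mod_cast h
    · simp only [map_sub, map_sum, hQ]
      rw [Finset.sum_congr rfl (fun x _ => hNN x χ χ), sum_NN hM hmax hnil hχ hχ, if_pos rfl]
      simp [hN]
  have hprod : ∀ x : P, 1 ≤ ∏ j ∈ coprimeResidues N, a x j := by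
    intro x
    obtain ⟨R, hR⟩ := prod_coprime_int hN0 (Q x)
    rw [Finset.prod_congr rfl (fun j hj => hreal x j hj), ← Complex.ofReal_prod, ← Complex.ofReal_intCast,
      Complex.ofReal_inj] at hR
    have h1 : 0 < ∏ j ∈ coprimeResidues N, a x j := Finset.prod_pos (hpos x)
    rw [hR] at h1 ⊢
    exact_mod_cast (Int.cast_pos.1 h1)
  have hle : ∀ x : P, ((coprimeResidues N).card : ℝ) ≤ ∑ j ∈ coprimeResidues N, a x j := fun x =>
    card_le_sum_of_one_le_prod _ _ (hpos x) (hprod x)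
  have htot : ∑ x : P, ∑ j ∈ coprimeResidues N, a x j = ∑ _x : P, ((coprimeResidues N).card : ℝ) := by
    rw [Finset.sum_comm, Finset.sum_congr rfl hsum, Finset.sum_const, Finset.sum_const, Finset.card_univ,
      ← Nat.card_eq_fintype_card, ← hN, nsmul_eq_mul, nsmul_eq_mul, mul_comm]
  have heq := (Finset.sum_eq_sum_iff_of_le (fun x _ => hle x)).1 htot.symm ⟨x, hx⟩ (Finset.mem_univ _)
  have hlog : ∀ j ∈ coprimeResidues N, a ⟨x, hx⟩ j = 1 := by
    intro j hj
    by_contra hj1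
    have h1 : 0 ≤ ∑ j ∈ coprimeResidues N, Real.log (a ⟨x, hx⟩ j) := by
      rw [← Real.log_prod (fun i hi => (hpos _ i hi).ne')]
      exact Real.log_nonneg (hprod _)
    have h2 : ∑ j ∈ coprimeResidues N, Real.log (a ⟨x, hx⟩ j) < ∑ j ∈ coprimeResidues N, (a ⟨x, hx⟩ j - 1) :=
      Finset.sum_lt_sum (fun i hi => Real.log_le_sub_one_of_pos (hpos _ i hi))
        ⟨j, hj, Real.log_lt_sub_one_of_pos (hpos _ j hj) hj1⟩
    rw [Finset.sum_sub_distrib, Finset.sum_const, nsmul_eq_mul, mul_one, ← heq] at h2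
    linarith
  obtain ⟨j, hj⟩ := Finset.card_pos.1 (coprimeResidues_card_pos hN0)
  have hj1 : aeval (zetaRoot N ^ j) (Q ⟨x, hx⟩ - 1) = 0 := by
    rw [map_sub, map_one, hreal _ j hj, hlog j hj, Complex.ofReal_one, sub_self]
  have h1 : aeval (zetaRoot N) (Q ⟨x, hx⟩ - 1) = 0 := by
    by_contra h
    exact aeval_conjugate_ne_zero hN0 _ (Finset.mem_filter.1 hj).2 h hj1
  rw [map_sub, map_one, sub_eq_zero] at h1
  rw [← hNN ⟨x, hx⟩ χ χ]
  exact h1

/-- With one Brauer character the section values are proportional. -/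
theorem SV_of_rank_one {x : G} (hx : x ∈ P) (hl : blockRank p (belb hM hmax x) = 1) {χ : IrrCharacter G}
    (hχ : χ ∈ B) (hmin : ∀ ρ ∈ B, degExp p χ ≤ degExp p ρ) (ψ : IrrCharacter G) (y : G) :
    SV p x (cf hM hmax x) (ψ : G → ℂ) y =
      NN hM hmax x (ψ : G → ℂ) (χ : G → ℂ) * SV p x (cf hM hmax x) (χ : G → ℂ) y := by
  classical
  have hxp := exists_orderOf_eq_of_mem hmax.1.1.1 hx
  have hind := (belb_props hM hmax hnil hx).1
  haveI : Fintype (IrrCharacter (cen x)) := @Fintype.ofFinite _ finite_irrCharacter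
  set b := belb hM hmax x with hb
  have hcl : ∀ ψ : IrrCharacter G, IsClassFunction G (ψ : G → ℂ) := fun ψ => isClassFunction (isCharacter_of_irr ψ.2)
  unfold blockRank at hl
  set W := Submodule.span ℂ ((fun ξ : IrrCharacter (cen x) => pRegularPart p (ξ : cen x → ℂ)) '' b) with hW
  have hmem : ∀ ψ : IrrCharacter G, (fun y => secVal p x b (ψ : G → ℂ) y) ∈ W := by
    intro ψ
    have e : (fun y => secVal p x b (ψ : G → ℂ) y) = ∑ ξ ∈ Finset.univ.filter (· ∈ b),
        classInner (shiftFun x (ψ : G → ℂ)) (ξ : cen x → ℂ) • pRegularPart p (ξ : cen x → ℂ) := by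
      funext y
      simp only [secVal, Finset.sum_apply, Pi.smul_apply, smul_eq_mul, pRegularPart_eq,
        ZStar.blockPart_apply, ← Finset.sum_filter]
      split_ifs <;> simp
    rw [e]
    exact Submodule.sum_mem _ fun ξ hξ => Submodule.smul_mem _ _
      (Submodule.subset_span ⟨ξ, (Finset.mem_filter.1 hξ).2, rfl⟩)
  have hne : (⟨_, hmem χ⟩ : W) ≠ 0 := fun h =>
    secVal_one_ne_zero hM hxp hind hχ hmin (congrFun (congrArg Subtype.val h) 1)
  obtain ⟨c, hc⟩ := exists_smul_eq_of_finrank_eq_one hl hne ⟨_, hmem ψ⟩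
  have hv : ∀ y : cen x, secVal p x b (ψ : G → ℂ) y = c * secVal p x b (χ : G → ℂ) y := fun y =>
    (congrFun (congrArg Subtype.val hc) y).symm
  have hSV : ∀ y : G, SV p x (cf hM hmax x) (ψ : G → ℂ) y = c * SV p x (cf hM hmax x) (χ : G → ℂ) y := by
    intro y
    by_cases hy : Commute x y
    · have hym : y ∈ cen x := Subgroup.mem_centralizer_singleton_iff.2 hy.symm
      have := hv ⟨y, hym⟩
      rwa [secVal_eq_SV x b (hcl ψ), secVal_eq_SV x b (hcl χ)] at this
    · rw [SV_of_not (Or.inr hy), SV_of_not (Or.inr hy), mul_zero]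
  have hcN : NN hM hmax x (ψ : G → ℂ) (χ : G → ℂ) = c := by
    have h1 : NN hM hmax x (ψ : G → ℂ) (χ : G → ℂ) = c * NN hM hmax x (χ : G → ℂ) (χ : G → ℂ) := by
      simp only [NN, KS, hSV, mul_assoc, ← Finset.mul_sum]
      ring
    rw [h1, NN_self hM hmax hnil hχ hmin hx, mul_one]
  rw [hcN]
  exact hSV y

end CfsgLib.NilBlock
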