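import Cfsg.Agent.Blocks.Trace
import Cfsg.Agent.Blocks.Idempotent
import Mathlib.Combinatorics.Pigeonhole

/-!
# Powers of `p`-th power exponent in the group algebra, modulo powers of `p`
-/

set_option autoImplicit false
set_option linter.unusedSectionVars false
set_option linter.style.haveILetI false

namespace CfsgLib.NilBlock

open Cfsg CfsgLib.Blocks

/-- Divisibility by `p ^ m` in the local ring. -/
def PDiv (p : ℕ) (M : Ideal AlgInt) (m : ℕ) (c : ℂ) : Prop := ∃ r, MemLocalRing M r ∧ c = (p : ℂ) ^ m * r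

variable {p : ℕ} {M : Ideal AlgInt} (hM : IsPModular p M)

include hM in
theorem PDiv.zero (m : ℕ) : PDiv p M m 0 := ⟨0, memLocalRing_zero hM, by rw [mul_zero]⟩

include hM in
theorem PDiv.add {m : ℕ} {a b : ℂ} (ha : PDiv p M m a) (hb : PDiv p M m b) : PDiv p M m (a + b) := by
  obtain ⟨r, hr, rfl⟩ := ha
  obtain ⟨s, hs, rfl⟩ := hb
  exact ⟨r + s, memLocalRing_add hM hr hs, by ring⟩

theorem PDiv.neg {m : ℕ} {a : ℂ} (ha : PDiv p M m a) : PDiv p M m (-a) := by
  obtain ⟨r, hr, rfl⟩ := ha
  exact ⟨-r, memLocalRing_neg hr, by ring⟩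

include hM in
theorem PDiv.sub {m : ℕ} {a b : ℂ} (ha : PDiv p M m a) (hb : PDiv p M m b) : PDiv p M m (a - b) := by
  rw [sub_eq_add_neg]; exact ha.add hM hb.neg

include hM in
theorem PDiv.sum {m : ℕ} {ι : Type*} (s : Finset ι) {f : ι → ℂ} (h : ∀ i ∈ s, PDiv p M m (f i)) :
    PDiv p M m (∑ i ∈ s, f i) :=
  Finset.sum_induction _ _ (fun _ _ => PDiv.add hM) (PDiv.zero hM m) h

include hM in
theorem PDiv.mul {m : ℕ} {a b : ℂ} (ha : PDiv p M m a) (hb : MemLocalRing M b) : PDiv p M m (a * b) := by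
  obtain ⟨r, hr, rfl⟩ := ha
  exact ⟨r * b, memLocalRing_mul hM hr hb, by ring⟩

include hM in
theorem PDiv.mul_left {m : ℕ} {a b : ℂ} (hb : MemLocalRing M b) (ha : PDiv p M m a) : PDiv p M m (b * a) := by
  rw [mul_comm]; exact ha.mul hM hb

include hM in
theorem PDiv.mem {m : ℕ} {a : ℂ} (ha : PDiv p M m a) : MemLocalRing M a := by
  obtain ⟨r, hr, rfl⟩ := ha
  exact memLocalRing_mul hM (memLocalRing_pow hM (memLocalRing_natCast hM p) m) hr

include hM in
theorem PDiv.mono {m n : ℕ} (hmn : m ≤ n) {a : ℂ} (ha : PDiv p M n a) : PDiv p M m a := by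
  obtain ⟨r, hr, rfl⟩ := ha
  refine ⟨(p : ℂ) ^ (n - m) * r, memLocalRing_mul hM (memLocalRing_pow hM (memLocalRing_natCast hM p) _) hr, ?_⟩
  rw [← mul_assoc, ← pow_add, Nat.add_sub_cancel' hmn]

include hM in
theorem PDiv.mem_ideal {m : ℕ} (hm : m ≠ 0) {a : ℂ} (ha : PDiv p M m a) : MemLocalIdeal M a := by
  obtain ⟨r, hr, rfl⟩ := ha.mono hM (Nat.one_le_iff_ne_zero.2 hm)
  rw [pow_one]
  exact memLocalIdeal_mul_right hM ((memLocalIdeal_natCast_iff hM p).2 dvd_rfl) hr

include hM in
theorem PDiv.mul_natCast {m c : ℕ} {a : ℂ} (ha : MemLocalRing M a) (hc : p ^ m ∣ c) : PDiv p M m ((c : ℂ) * a) := by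
  obtain ⟨d, rfl⟩ := hc
  exact ⟨(d : ℂ) * a, memLocalRing_mul hM (memLocalRing_natCast hM d) ha, by push_cast; ring⟩

include hM in
/-- High powers of an element of the ideal are highly divisible. -/
theorem exists_pdiv_pow {x : ℂ} (hx : MemLocalIdeal M x) (m : ℕ) : ∃ n₀, ∀ n ≥ n₀, PDiv p M m (x ^ n) := by
  obtain ⟨n, r, hr, hxn⟩ := exists_pow_eq_mul hM hx
  refine ⟨n * m, fun N hN => ?_⟩
  refine ⟨r ^ m * x ^ (N - n * m), memLocalRing_mul hM (memLocalRing_pow hM hr m)
    (memLocalRing_pow hM (memLocalRing_of_memLocalIdeal hx) _), ?_⟩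
  rw [← mul_assoc, ← mul_pow, ← hxn, ← pow_mul, ← pow_add, Nat.add_sub_cancel' hN]

variable {G : Type*} [Group G] [Fintype G]

include hM in
/-- High powers of a small element are highly divisible. -/
theorem exists_pdiv_coeff_pow {w : MonoidAlgebra ℂ G} (hw : ∀ g, MemLocalIdeal M (w.coeff g)) (m : ℕ) :
    ∃ n₀, ∀ n ≥ n₀, ∀ g, PDiv p M m ((w ^ n).coeff g) := by
  classical
  choose ng hng using fun g => exists_pdiv_pow hM (hw g) m
  set K := Finset.univ.sup ng with hK
  refine ⟨Fintype.card G * K + 1, fun n hn g => ?_⟩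
  rw [pow_eq_sum_words, MonoidAlgebra.coeff_sum, Finset.sum_apply']
  refine PDiv.sum hM _ fun f _ => ?_
  simp only [MonoidAlgebra.coeff_single, Finsupp.single_apply]
  split_ifs
  swap
  · exact PDiv.zero hM m
  obtain ⟨h, -, hh⟩ := Finset.exists_lt_card_fiber_of_mul_lt_card_of_maps_to (s := (Finset.univ : Finset (Fin n)))
    (t := (Finset.univ : Finset G)) (f := f) (n := K) (fun _ _ => Finset.mem_univ _) (by simp; omega)
  rw [← Finset.prod_filter_mul_prod_filter_not Finset.univ (fun i => f i = h)]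
  refine PDiv.mul hM ?_ (memLocalRing_prod hM _ fun i _ => memLocalRing_of_memLocalIdeal (hw _))
  rw [Finset.prod_congr rfl (g := fun _ => w.coeff h) (fun i hi => by rw [(Finset.mem_filter.1 hi).2]),
    Finset.prod_const]
  exact hng h _ ((Finset.le_sup (Finset.mem_univ h)).trans hh.le)

include hM in
/-- The sum over a singular class of a power with exponent a high power of `p` is highly divisible. -/
theorem classTrace_pow_pdiv {z : MonoidAlgebra ℂ G} (hR : ∀ g, MemLocalRing M (z.coeff g)) {y : G}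
    (hy : p ∣ orderOf y) (m : ℕ) {n : ℕ} (hn' : m + (Nat.card G).factorization p ≤ n) :
    PDiv p M m (classTrace y (z ^ p ^ n)) := by
  classical
  set a := (Nat.card G).factorization p with ha
  haveI : NeZero (p ^ n) := ⟨pow_ne_zero _ hM.1.ne_zero⟩
  set N := p ^ n with hN
  let e : Fin N ≃ ZMod N :=
    { toFun := fun i => ((i : ℕ) : ZMod N)
      invFun := fun k => ⟨k.val, ZMod.val_lt k⟩
      left_inv := fun i => Fin.ext (by simp [ZMod.val_natCast, Nat.mod_eq_of_lt i.2])
      right_inv := fun k => ZMod.natCast_zmod_val k }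
  have hlist : ∀ f : ZMod N → G, (List.ofFn (fun i : Fin N => f (e i))).prod = wordProd f N := by
    intro f
    rw [wordProd, List.ofFn_eq_map, ← List.map_coe_finRange_eq_range, List.map_map]
    rfl
  have hexp : classTrace y (z ^ N)
      = ∑ f : ZMod N → G, if IsConj y (wordProd f N) then ∏ i, z.coeff (f i) else 0 := by
    rw [pow_eq_sum_words, classTrace_sum]
    rw [← (Equiv.arrowCongr e.symm (Equiv.refl G)).sum_comp]
    refine Finset.sum_congr rfl fun f _ => ?_
    rw [classTrace_single]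
    have e1 : Equiv.arrowCongr e.symm (Equiv.refl G) f = fun i => f (e i) := by
      funext i; simp [Equiv.arrowCongr]
    rw [e1, hlist, e.prod_comp (fun i => z.coeff (f i))]
  letI : AddAction (ZMod N) (ZMod N → G) :=
    { vadd := fun k f i => f (i + k)
      zero_vadd := fun f => funext fun i => by show f (i + 0) = f i; rw [add_zero]
      add_vadd := fun k l f => funext fun i => by
        show f (i + (k + l)) = f (i + k + l); rw [add_assoc] }
  rw [hexp]
  obtain ⟨r, hr, hsum⟩ := sum_invariant_eq_mul hM (H := ZMod N)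
    (fun f : ZMod N → G => if IsConj y (wordProd f N) then ∏ i, z.coeff (f i) else 0)
    (fun k f => by
      have hc := isConj_wordProd_add f k
      have he : (∏ i, z.coeff ((k +ᵥ f) i)) = ∏ i, z.coeff (f i) :=
        Equiv.prod_comp (Equiv.addRight k) (fun i => z.coeff (f i))
      simp only [he]
      exact if_congr ⟨fun h => h.trans hc, fun h => h.trans hc.symm⟩ rfl rfl)
    (fun f => by
      split_ifs
      · exact memLocalRing_prod hM _ fun i _ => hR _
      · exact memLocalRing_zero hM)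
    (p ^ m) (fun f hf => by
      have hconj : IsConj y (wordProd f N) := by by_contra h; exact hf (if_neg h)
      have hdiv : (AddAction.stabilizer (ZMod N) f).index ∣ p ^ n := by
        have h := AddSubgroup.index_dvd_card (AddAction.stabilizer (ZMod N) f)
        rw [Nat.card_zmod] at h
        exact h
      obtain ⟨i, -, hi⟩ := (Nat.dvd_prime_pow hM.1).1 hdiv
      rw [hi]
      refine pow_dvd_pow p ?_
      by_contra hlt
      push Not at hlt
      have hper : ∀ j, f (j + ((p ^ (n - a) : ℕ) : ZMod N)) = f j := by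
        have hmem : ((p ^ (n - a) : ℕ) : ZMod N) ∈ AddAction.stabilizer (ZMod N) f := by
          have h1 : (AddAction.stabilizer (ZMod N) f).index • (1 : ZMod N) ∈ AddAction.stabilizer (ZMod N) f :=
            AddSubgroup.nsmul_index_mem _ _
          rw [hi] at h1
          have h2 : (p ^ (n - a) : ℕ) = p ^ (n - a - i) * p ^ i := by
            rw [← pow_add, Nat.sub_add_cancel (by omega)]
          rw [← nsmul_one, h2, mul_nsmul']
          exact (AddAction.stabilizer (ZMod N) f).nsmul_mem h1 _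
        intro j
        exact congrFun (AddAction.mem_stabilizer_iff.1 hmem) j
      have hNq : N = p ^ (n - a) * p ^ a := by rw [hN, ← pow_add, Nat.sub_add_cancel (by omega)]
      have hpow := wordProd_periodic f (p ^ (n - a)) hper (p ^ a)
      rw [← hNq] at hpow
      rw [hpow] at hconj
      obtain ⟨c, hc⟩ := isConj_iff.1 hconj
      have ho : orderOf (c * y * c⁻¹) = orderOf y := (MulAut.conj c).orderOf_eq y
      rw [hc] at ho
      exact not_dvd_orderOf_pow hM.1 _ (ho ▸ hy))
  exact ⟨r, hr, by rw [hsum]; push_cast; ring⟩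

include hM in
/-- A class function against such a power only sees the regular elements. -/
theorem sum_pow_mul_regular {z : MonoidAlgebra ℂ G} (hR : ∀ g, MemLocalRing M (z.coeff g)) {F : G → ℂ}
    (hF : IsClassFunction G F) (hFi : ∀ g, MemLocalRing M (F g)) (m : ℕ) {n : ℕ}
    (hn : m + (Nat.card G).factorization p ≤ n) :
    PDiv p M m ((∑ g, (z ^ p ^ n).coeff g * F g) - ∑ g, if p ∣ orderOf g then 0 else (z ^ p ^ n).coeff g * F g) := by
  classical
  haveI : Fintype (ConjClasses G) := Fintype.ofFinite _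
  rw [← Finset.sum_sub_distrib, ← Finset.sum_fiberwise_of_maps_to (g := ConjClasses.mk) (t := Finset.univ)
    (fun g _ => Finset.mem_univ _)]
  refine PDiv.sum hM _ fun C _ => ?_
  obtain ⟨y, rfl⟩ := ConjClasses.exists_rep C
  have hord : ∀ g, ConjClasses.mk g = ConjClasses.mk y → orderOf g = orderOf y ∧ F g = F y := fun g hg => by
    obtain ⟨c, hc⟩ := isConj_iff.1 (ConjClasses.mk_eq_mk_iff_isConj.1 hg).symm
    rw [← hc]
    exact ⟨(MulAut.conj c).orderOf_eq y, hF y c⟩
  by_cases hy : p ∣ orderOf y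
  · rw [Finset.sum_congr rfl (g := fun g => (z ^ p ^ n).coeff g * F y) fun g hg => by
      rw [(hord g (Finset.mem_filter.1 hg).2).1, if_pos hy, sub_zero, (hord g (Finset.mem_filter.1 hg).2).2],
      ← Finset.sum_mul]
    refine PDiv.mul hM ?_ (hFi y)
    have h := classTrace_pow_pdiv hM hR hy m hn
    rw [classTrace, ← Finset.sum_filter] at h
    convert h using 2
    ext g
    simp only [Finset.mem_filter, Finset.mem_univ, true_and, ConjClasses.mk_eq_mk_iff_isConj]
    exact isConj_comm
  · rw [Finset.sum_eq_zero fun g hg => by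
      rw [(hord g (Finset.mem_filter.1 hg).2).1, if_neg hy, sub_self]]
    exact PDiv.zero hM m

/-- Words twisted by `u`. -/
def Twist (u : G) (q : ℕ) : Type _ := {F : ℤ → G // ∀ i, F (i + q) = u * F i * u⁻¹}

theorem Twist.iterate {u : G} {q : ℕ} (F : Twist u q) (i j : ℤ) : F.1 (i + q * j) = u ^ j * F.1 i * u ^ (-j) := by
  induction j using Int.induction_on with
  | zero => simp
  | succ j ih =>
    rw [show i + (q : ℤ) * (j + 1) = i + q * j + q by ring, F.2, ih, zpow_add_one]
    group
  | pred j ih =>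
    have h := F.2 (i + (q : ℤ) * (-j - 1))
    rw [show i + (q : ℤ) * (-j - 1) + q = i + q * -j by ring, ih] at h
    calc F.1 (i + (q : ℤ) * (-j - 1)) = u⁻¹ * (u * F.1 (i + (q : ℤ) * (-j - 1)) * u⁻¹) * u := by group
      _ = u⁻¹ * (u ^ (-(j : ℤ)) * F.1 i * u ^ (-(-(j : ℤ)))) * u := by rw [h]
      _ = _ := by group

/-- The twisted word with given first letters. -/
def twistFun (u : G) {q : ℕ} (hq : 0 < q) (f : Fin q → G) (i : ℤ) : G :=
  u ^ (i / q) * f ⟨(i % q).toNat, by
    have := Int.emod_lt_of_pos i (Int.natCast_pos.2 hq)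
    omega⟩ * u ^ (-(i / q))

theorem twistFun_add {u : G} {q : ℕ} (hq : 0 < q) (f : Fin q → G) (i : ℤ) :
    twistFun u hq f (i + q) = u * twistFun u hq f i * u⁻¹ := by
  simp only [twistFun, Int.add_emod_right]
  rw [Int.add_ediv_of_dvd_right dvd_rfl, Int.ediv_self (Int.natCast_ne_zero.2 hq.ne')]
  group

/-- A twisted word is given by its first letters. -/
noncomputable def Twist.equiv (u : G) {q : ℕ} (hq : 0 < q) : Twist u q ≃ (Fin q → G) where
  toFun F i := F.1 (i : ℕ)
  invFun f := ⟨twistFun u hq f, twistFun_add hq f⟩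
  left_inv F := Subtype.ext (funext fun i => by
    have h := F.iterate (i % q) (i / q)
    rw [Int.emod_add_mul_ediv] at h
    simp only [twistFun]
    rw [h]
    have h0 : (((i % q).toNat : ℕ) : ℤ) = i % q := Int.toNat_of_nonneg (Int.emod_nonneg i (by omega))
    simp only [h0])
  right_inv f := funext fun i => by
    have h1 : ((i : ℕ) : ℤ) / (q : ℤ) = 0 := Int.ediv_eq_zero_of_lt (by omega) (by exact_mod_cast i.2)
    have h2 : ((i : ℕ) : ℤ) % (q : ℤ) = (i : ℕ) := Int.emod_eq_of_lt (by omega) (by exact_mod_cast i.2)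
    show twistFun u hq f ((i : ℕ) : ℤ) = f i
    simp [twistFun, h1, h2]

theorem Twist.equiv_apply (u : G) {q : ℕ} (hq : 0 < q) (F : Twist u q) (i : Fin q) :
    Twist.equiv u hq F i = F.1 (i : ℕ) := rfl

theorem list_prod_shift (f : ℕ → G) (n : ℕ) :
    f 0 * ((List.range n).map fun i => f (i + 1)).prod = ((List.range (n + 1)).map f).prod := by
  rw [List.range_succ_eq_map, List.map_cons, List.prod_cons, List.map_map]
  rfl

include hM in
/-- Modulo a high power of `p`, a power against a class function translated by a fixed `p`-element only sees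
the centralizer. -/
theorem twist_congr {u : G} {k : ℕ} (hu : orderOf u = p ^ k) {a : MonoidAlgebra ℂ G}
    (ha : ∀ g, MemLocalRing M (a.coeff g)) (hau : ∀ g, a.coeff (u * g * u⁻¹) = a.coeff g)
    {b : MonoidAlgebra ℂ G} (hb1 : ∀ g, u * g = g * u → b.coeff g = a.coeff g)
    (hb2 : ∀ g, u * g ≠ g * u → b.coeff g = 0)
    {F : G → ℂ} (hF : IsClassFunction G F) (hFi : ∀ g, MemLocalRing M (F g)) (n : ℕ) :
    PDiv p M (n + 1) ((∑ g, (a ^ p ^ n).coeff g * F (u * g)) - ∑ g, (b ^ p ^ n).coeff g * F (u * g)) := by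
  classical
  set q := p ^ n with hqdef
  have hq : 0 < q := pow_pos hM.1.pos n
  have hexp : ∀ c : MonoidAlgebra ℂ G, ∑ g, (c ^ q).coeff g * F (u * g) =
      ∑ f : Fin q → G, (∏ i, c.coeff (f i)) * F (u * (List.ofFn f).prod) := by
    intro c
    rw [pow_eq_sum_words]
    simp only [MonoidAlgebra.coeff_sum, Finset.sum_apply', Finset.sum_mul]
    rw [Finset.sum_comm]
    refine Finset.sum_congr rfl fun f _ => ?_
    simp [MonoidAlgebra.coeff_single, Finsupp.single_apply]
  rw [hexp, hexp, ← Finset.sum_sub_distrib]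
  haveI : Fintype (Twist u q) := Fintype.ofEquiv _ (Twist.equiv u hq).symm
  rw [← (Twist.equiv u hq).sum_comp]
  haveI : NeZero (p ^ (n + k)) := ⟨pow_ne_zero _ hM.1.ne_zero⟩
  set L := p ^ (n + k) with hL
  have hperL : ∀ (F : Twist u q) (i j : ℤ), F.1 (i + L * j) = F.1 i := by
    intro F i j
    have h := F.iterate i ((p ^ k : ℕ) * j)
    rw [← mul_assoc, ← Nat.cast_mul, show q * p ^ k = L by rw [hqdef, hL, pow_add]] at h
    rw [h, zpow_neg, zpow_mul, zpow_natCast, ← hu, pow_orderOf_eq_one, one_zpow, one_mul, inv_one, mul_one]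
  letI : AddAction (ZMod L) (Twist u q) :=
    { vadd := fun h F => ⟨fun i => F.1 (i + h.val), fun i => by
        show F.1 (i + q + h.val) = u * F.1 (i + h.val) * u⁻¹
        rw [show i + q + (h.val : ℤ) = i + h.val + q by ring]; exact F.2 _⟩
      zero_vadd := fun F => Subtype.ext (funext fun i => by show F.1 (i + _) = F.1 i; simp)
      add_vadd := fun g h F => Subtype.ext (funext fun i => by
        show F.1 (i + ((g + h).val : ℤ)) = F.1 (i + (g.val : ℤ) + (h.val : ℤ))
        rw [ZMod.val_add]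
        conv_rhs => rw [add_assoc, ← Nat.cast_add, ← Nat.mod_add_div (g.val + h.val) L, Nat.cast_add, Nat.cast_mul,
          ← add_assoc, hperL]) }
  set T : Twist u q → ℂ := fun W => (∏ i : Fin q, a.coeff (W.1 (i : ℕ))) *
    F (u * (List.ofFn fun i : Fin q => W.1 (i : ℕ)).prod) with hT
  set T' : Twist u q → ℂ := fun W => if (∀ i : ℤ, u * W.1 i = W.1 i * u) then 0 else T W with hT'
  have hdiff : ∀ W : Twist u q, (∏ i, a.coeff (Twist.equiv u hq W i)) * F (u * (List.ofFn (Twist.equiv u hq W)).prod) -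
      (∏ i, b.coeff (Twist.equiv u hq W i)) * F (u * (List.ofFn (Twist.equiv u hq W)).prod) = T' W := by
    intro W
    rw [show Twist.equiv u hq W = fun i : Fin q => W.1 (i : ℕ) from rfl]
    simp only [hT']
    by_cases hW : ∀ i : ℤ, u * W.1 i = W.1 i * u
    · rw [if_pos hW, Finset.prod_congr rfl fun (i : Fin q) _ => hb1 _ (hW ((i : ℕ) : ℤ))]
      exact sub_self _
    · rw [if_neg hW]
      obtain ⟨i, hi⟩ : ∃ i : Fin q, u * W.1 (i : ℕ) ≠ W.1 (i : ℕ) * u := by
        by_contra hcon
        push Not at hcon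
        refine hW fun i => ?_
        have h := W.iterate (i % q) (i / q)
        rw [Int.emod_add_mul_ediv] at h
        have hlt := Int.emod_lt_of_pos i (Int.natCast_pos.2 hq)
        have h0 : (((i % q).toNat : ℕ) : ℤ) = i % q := Int.toNat_of_nonneg (Int.emod_nonneg i (by omega))
        have hc := hcon ⟨(i % q).toNat, by omega⟩
        rw [h0] at hc
        have hC : Commute u (W.1 (i % q)) := hc
        rw [h, (hC.zpow_left (i / q)).eq, zpow_neg, mul_assoc, mul_inv_cancel, mul_one]
        exact hc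
      rw [show (∏ i : Fin q, b.coeff (W.1 (i : ℕ))) = 0 from Finset.prod_eq_zero (Finset.mem_univ i) (hb2 _ hi), zero_mul, sub_zero]
  rw [Finset.sum_congr rfl fun W _ => hdiff W]
  have hstep : ∀ W W' : Twist u q, (∀ i, W'.1 i = W.1 (i + 1)) → T W' = T W := by
    intro W W' hW
    obtain ⟨r, hr⟩ : ∃ r, q = r + 1 := ⟨q - 1, by omega⟩
    have hprod : ∀ c : G → ℂ, c (u * W.1 0 * u⁻¹) = c (W.1 0) →
        (∏ i : Fin q, c (W'.1 (i : ℕ))) = ∏ i : Fin q, c (W.1 (i : ℕ)) := by
      intro c hc
      rw [Fin.prod_univ_eq_prod_range (fun i => c (W'.1 (i : ℕ))), Fin.prod_univ_eq_prod_range (fun i => c (W.1 (i : ℕ))),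
        show Finset.range q = Finset.range (r + 1) by rw [hr], Finset.prod_range_succ, Finset.prod_range_succ']
      congr 1
      · exact Finset.prod_congr rfl fun i _ => by rw [hW]; push_cast; rfl
      · rw [hW, show ((r : ℕ) : ℤ) + 1 = 0 + (q : ℤ) by rw [hr]; push_cast; ring, W.2, hc]
        rfl
    simp only [hT]
    rw [hprod _ (hau _)]
    congr 1
    have e : ∀ V : Twist u q, (List.ofFn fun i : Fin q => V.1 (i : ℕ)).prod =
        ((List.range q).map fun i : ℕ => V.1 (i : ℕ)).prod := fun V => by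
      rw [List.ofFn_eq_map, ← List.map_coe_finRange_eq_range, List.map_map]; rfl
    rw [e, e, show List.range q = List.range (r + 1) by rw [hr]]
    conv_lhs => rw [List.range_succ, List.map_append, List.prod_append]
    rw [← list_prod_shift (fun i : ℕ => W.1 (i : ℕ)) r]
    simp only [List.map_cons, List.map_nil, List.prod_cons, List.prod_nil, mul_one, hW]
    rw [show ((r : ℕ) : ℤ) + 1 = 0 + (q : ℤ) by rw [hr]; push_cast; ring, W.2]
    push_cast
    set A := ((List.range r).map fun i : ℕ => W.1 ((i : ℤ) + 1)).prod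
    rw [show u * (A * (u * W.1 0 * u⁻¹)) = (u * A) * (u * (W.1 0 * A)) * (u * A)⁻¹ by group, hF]
  have hadd : ∀ (j : ℕ) (W W' : Twist u q), (∀ i, W'.1 i = W.1 (i + j)) → T' W' = T' W := by
    intro j W W' hW
    have hcond : (∀ i : ℤ, u * W'.1 i = W'.1 i * u) ↔ (∀ i : ℤ, u * W.1 i = W.1 i * u) := by
      refine ⟨fun h i => ?_, fun h i => by rw [hW]; exact h _⟩
      have := h (i - j)
      rwa [hW, sub_add_cancel] at this
    simp only [hT']
    by_cases hc : ∀ i : ℤ, u * W.1 i = W.1 i * u
    · rw [if_pos (hcond.2 hc), if_pos hc]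
    rw [if_neg (fun h => hc (hcond.1 h)), if_neg hc]
    clear hcond hc
    induction j generalizing W' with
    | zero => rw [show W' = W from Subtype.ext (funext fun i => by simpa using hW i)]
    | succ j ih =>
      let W1 : Twist u q := ⟨fun i => W.1 (i + j), fun i => by
        show W.1 (i + q + j) = u * W.1 (i + j) * u⁻¹
        rw [show i + (q : ℤ) + j = i + j + q by ring, W.2]⟩
      rw [hstep W1 W' (fun i => by rw [hW]; show _ = W.1 (i + 1 + j); push_cast; ring_nf), ih W1 fun i => rfl]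
  obtain ⟨r, hr, hsum⟩ := sum_invariant_eq_mul hM (H := ZMod L) T'
    (fun h W => hadd h.val W _ fun i => rfl)
    (fun W => by
      simp only [hT']
      split_ifs
      · exact memLocalRing_zero hM
      · exact memLocalRing_mul hM (memLocalRing_prod hM _ fun i _ => ha _) (hFi _))
    (p ^ (n + 1)) (fun W hW => by
      have hdiv : (AddAction.stabilizer (ZMod L) W).index ∣ p ^ (n + k) := by
        have h := AddSubgroup.index_dvd_card (AddAction.stabilizer (ZMod L) W)
        rwa [Nat.card_zmod] at h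
      obtain ⟨i, hik, hi⟩ := (Nat.dvd_prime_pow hM.1).1 hdiv
      rw [hi]
      refine pow_dvd_pow p ?_
      by_contra hlt
      push Not at hlt
      have hmem : ((p ^ n : ℕ) : ZMod L) ∈ AddAction.stabilizer (ZMod L) W := by
        have h1 : (AddAction.stabilizer (ZMod L) W).index • (1 : ZMod L) ∈ AddAction.stabilizer (ZMod L) W :=
          AddSubgroup.nsmul_index_mem _ _
        rw [hi] at h1
        have h2 : p ^ n = p ^ (n - i) * p ^ i := by rw [← pow_add, Nat.sub_add_cancel (by omega)]
        rw [← nsmul_one, h2, mul_nsmul']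
        exact (AddAction.stabilizer (ZMod L) W).nsmul_mem h1 _
      apply hW
      simp only [hT']
      rw [if_pos]
      intro j
      have h3 := congrArg (fun V : Twist u q => V.1 j) (AddAction.mem_stabilizer_iff.1 hmem)
      change W.1 (j + ((((p ^ n : ℕ) : ZMod L).val : ℕ) : ℤ)) = W.1 j at h3
      rw [ZMod.val_natCast] at h3
      have h4 : W.1 (j + (q : ℤ)) = W.1 j := by
        have eZ : j + (q : ℤ) = j + ((p ^ n % L : ℕ) : ℤ) + (L : ℤ) * ((p ^ n / L : ℕ) : ℤ) := by
          rw [add_assoc, ← Nat.cast_mul, ← Nat.cast_add, Nat.mod_add_div]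
        exact (congrArg W.1 eZ).trans ((hperL W _ _).trans h3)
      rw [W.2] at h4
      exact mul_inv_eq_iff_eq_mul.1 h4)
  exact ⟨r, hr, by rw [hsum]; push_cast; ring⟩

end CfsgLib.NilBlock
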