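import Cfsg.Agent.Blocks.NilBlock.Source
import Cfsg.Agent.Blocks.NilBlock.Words
import Cfsg.Agent.Blocks.NilBlock.Contrib
import Cfsg.Agent.Blocks.QuotientDefect
import Cfsg.Agent.Blocks.CentralSupport
import Cfsg.Agent.BrauerInd.RegularSep

/-!
# A lifted source element and its values against the characters of the block
-/

set_option autoImplicit false
set_option linter.unusedSectionVars false
set_option linter.style.haveILetI false

namespace CfsgLib.NilBlock

open Cfsg CfsgLib.Blocks CfsgLib.PairAlg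
open scoped ComplexConjugate

attribute [local instance] CfsgLib.Blocks.residueField CfsgLib.Blocks.residue_charP

universe u

variable {p : ℕ} [Fact p.Prime] {M : Ideal AlgInt} {G : Type u} [Group G] [Fintype G] (hM : IsPModular p M)

noncomputable local instance instFintypeSubgroupNilLifted (K : Subgroup G) : Fintype K := Fintype.ofFinite K

/-- The value of `ψ` at `u` times the `p ^ n`-th power of `z`. -/
noncomputable def GF (p n : ℕ) (z : MonoidAlgebra ℂ G) (ψ : G → ℂ) (u : G) : ℂ :=
  ∑ g, (z ^ p ^ n).coeff g * ψ (u * g)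

/-- The regular part of a section against the power of the restriction of `z`. -/
noncomputable def RG (p n : ℕ) (z : MonoidAlgebra ℂ G) (u : G) (β : G → ℂ) (ψ : G → ℂ) : ℂ :=
  ∑ c : cen u, ((ZStar.res (cen u) z) ^ p ^ n).coeff c * SV p u β ψ c

theorem sum_pow_res (H : Subgroup G) {b : MonoidAlgebra ℂ G} (hb : Supp H b) (q : ℕ) (F : G → ℂ) :
    ∑ g, (b ^ q).coeff g * F g = ∑ c : H, ((ZStar.res H b) ^ q).coeff c * F c := by
  classical
  set L := MonoidAlgebra.mapDomainRingHom ℂ H.subtype with hL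
  have hco : ∀ (w : MonoidAlgebra ℂ H) (c : H), (L w).coeff (c : G) = w.coeff c := fun w c =>
    Finsupp.mapDomain_apply H.subtype_injective _ _
  have hoff : ∀ (w : MonoidAlgebra ℂ H) (g : G), g ∉ H → (L w).coeff g = 0 := fun w g hg =>
    Finsupp.mapDomain_notin_range _ _ fun ⟨c, hc⟩ => hg (hc ▸ c.2)
  have e : L (ZStar.res H b) = b := by
    ext g
    by_cases hg : g ∈ H
    · rw [show g = ((⟨g, hg⟩ : H) : G) from rfl, hco, ZStar.coeff_res]
    · rw [hoff _ g hg]
      by_contra h
      exact hg (hb g (Ne.symm h))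
  rw [← Finset.sum_subset (Finset.subset_univ (Finset.univ.map ⟨fun k : H => (k : G), Subtype.val_injective⟩))
    (fun g _ hg => ?_), Finset.sum_map]
  · refine Finset.sum_congr rfl fun c _ => ?_
    conv_lhs => rw [← e, ← map_pow]
    exact congrArg (· * F (c : G)) (hco _ c)
  · rw [← e, ← map_pow, hoff _ g (fun hm => hg (Finset.mem_map.2 ⟨⟨g, hm⟩, Finset.mem_univ _, rfl⟩)), zero_mul]

include hM

/-- Away from the chosen block nothing is seen of a high power. -/
theorem gf_congr {u : G} {k : ℕ} (hu : orderOf u = p ^ k) {z : MonoidAlgebra ℂ G}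
    (hz : ∀ g, MemLocalRing M (z.coeff g)) (hzu : ∀ g, z.coeff (u * g * u⁻¹) = z.coeff g)
    {b₀ : Set (IrrCharacter (cen u))} (hb₀ : IsPBlock M b₀)
    (hsmall : ∀ b : Set (IrrCharacter (cen u)), IsPBlock M b → b ≠ b₀ →
      ∀ c, MemLocalIdeal M ((blockElt b * ZStar.res (cen u) z).coeff c)) (m : ℕ) :
    ∃ n₀, ∀ n ≥ n₀, ∀ ψ : IrrCharacter G,
      PDiv p M m (GF p n z (ψ : G → ℂ) u - RG p n z u (coef u b₀) (ψ : G → ℂ)) := by
  classical
  haveI : Fintype (IrrCharacter (cen u)) := @Fintype.ofFinite _ CharBasics.finite_irrCharacter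
  set w := ZStar.res (cen u) z with hw
  have hwR : ∀ c, MemLocalRing M (w.coeff c) := fun c => by rw [hw, ZStar.coeff_res]; exact hz _
  set S := (blockFinset M (cen u)).erase b₀ with hS
  choose n₁ hn₁ using fun b : {b : Set (IrrCharacter (cen u)) // b ∈ S} =>
    exists_pdiv_coeff_pow hM (hsmall b.1 (mem_blockFinset.1 (Finset.mem_of_mem_erase b.2)) (Finset.ne_of_mem_erase b.2)) m
  set n₂ := Finset.univ.sup n₁
  refine ⟨m + (Nat.card (cen u)).factorization p + n₂, fun n hn ψ => ?_⟩
  have hψc := CharBasics.isClassFunction (CharBasics.isCharacter_of_irr ψ.2)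
  set F : cen u → ℂ := shiftFun u (ψ : G → ℂ) with hF
  have hFc : IsClassFunction (cen u) F := isClassFunction_shiftFun (x := u) hψc
  have hFi : ∀ c, MemLocalRing M (F c) := fun c => memLocalRing_apply hM ψ _
  set B' := fun (b : Set (IrrCharacter (cen u))) => ∑ c, (w ^ p ^ n).coeff c * blockPart b F c with hB'
  set cutz : MonoidAlgebra ℂ G := cut (cen u) z with hcut
  have h1 : PDiv p M m (GF p n z (ψ : G → ℂ) u - ∑ g, (cutz ^ p ^ n).coeff g * (ψ : G → ℂ) (u * g)) :=
    (twist_congr hM hu hz hzu (b := cutz)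
      (fun g hg => coeff_cut_of_mem _ (Subgroup.mem_centralizer_singleton_iff.2 hg.symm))
      (fun g hg => coeff_cut_of_notMem _ fun h => hg (Subgroup.mem_centralizer_singleton_iff.1 h).symm)
      hψc (memLocalRing_apply hM ψ) n).mono hM (by omega)
  have hres : ZStar.res (cen u) cutz = w := by
    ext c
    rw [hw, ZStar.coeff_res, ZStar.coeff_res, coeff_cut_of_mem _ c.2]
  have h2 : ∑ g, (cutz ^ p ^ n).coeff g * (ψ : G → ℂ) (u * g) = ∑ b ∈ blockFinset M (cen u), B' b := by
    rw [sum_pow_res (cen u) (supp_cut _ _) _ (fun g => (ψ : G → ℂ) (u * g)), hres]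
    simp only [hB']
    rw [Finset.sum_comm]
    refine Finset.sum_congr rfl fun c _ => ?_
    rw [← Finset.mul_sum, sum_blockPart hM hFc]
    rfl
  have hsum : ∀ b, B' b = ∑ g, (blockElt b * w ^ p ^ n).coeff g * F g := by
    intro b
    have he : ∀ g, (blockElt b * w ^ p ^ n).coeff g = ∑ h, blockCoeff b h * (w ^ p ^ n).coeff (h⁻¹ * g) := fun g => by
      rw [Blocks.coeff_mul_eq]
      simp only [coeff_blockElt]
    simp only [hB', he, Finset.sum_mul]
    conv_rhs => rw [Finset.sum_comm]
    rw [Finset.sum_congr rfl fun c _ => by rw [← ZStar.sum_blockCoeff_mul b hFc c, Finset.mul_sum], Finset.sum_comm]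
    refine Finset.sum_congr rfl fun h _ => ?_
    refine Fintype.sum_equiv (Equiv.mulLeft h) _ _ fun c => ?_
    simp only [Equiv.coe_mulLeft, inv_mul_cancel_left]
    ring
  have hother : ∀ b ∈ S, PDiv p M m (B' b) := by
    intro b hb
    obtain ⟨r, hr⟩ : ∃ r, p ^ n = r + 1 := ⟨p ^ n - 1, (Nat.sub_add_cancel (pow_pos hM.1.pos n)).symm⟩
    have he : blockElt b * w ^ p ^ n = (blockElt b * w) ^ p ^ n := by
      rw [((isClassElt_blockElt b).commute w).mul_pow, hr, (isIdempotentElem_blockElt b).pow_succ_eq r]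
    rw [hsum, he]
    refine PDiv.sum hM _ fun g _ => PDiv.mul hM (hn₁ ⟨b, hb⟩ _ ?_ g) (hFi g)
    exact le_trans (le_trans (Finset.le_sup (f := n₁) (Finset.mem_univ _)) (le_trans (Nat.le_add_left _ _) hn))
      (Nat.lt_pow_self hM.1.one_lt).le
  have hmain : PDiv p M m (B' b₀ - RG p n z u (coef u b₀) (ψ : G → ℂ)) := by
    have hcl : IsClassFunction (cen u) (blockPart b₀ F) := fun g h => by
      simp only [ZStar.blockPart_apply]
      refine Finset.sum_congr rfl fun ξ _ => ?_
      rw [CharBasics.isClassFunction (CharBasics.isCharacter_of_irr ξ.2) g h]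
    have hint : ∀ c, MemLocalRing M (blockPart b₀ F c) := fun c => by
      rw [← ZStar.sum_blockCoeff_mul b₀ hFc]
      exact memLocalRing_sum hM _ fun h _ => memLocalRing_mul hM (memLocalRing_blockCoeff hM hb₀ h) (hFi _)
    convert sum_pow_mul_regular hM hwR hcl hint m (n := n) (by omega) using 2
    refine Finset.sum_congr rfl fun c _ => ?_
    rw [← secVal_eq_SV u b₀ hψc, secVal, mul_ite, mul_zero]
  have hmem : b₀ ∈ blockFinset M (cen u) := mem_blockFinset.2 hb₀
  have hsplit := Finset.add_sum_erase (blockFinset M (cen u)) B' hmem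
  rw [← h2] at hsplit
  have h3 := PDiv.add hM (PDiv.add hM h1 hmain) (PDiv.sum hM S hother)
  rw [← hsplit] at h3
  convert h3 using 1
  ring

/-- Modulo `M` the value of a power is the power of the value. -/
theorem gf_one_congr {z : MonoidAlgebra ℂ G} (hz : ∀ g, MemLocalRing M (z.coeff g)) (χ : IrrCharacter G) (n : ℕ) :
    rd hM (GF p n z (χ : G → ℂ) 1) = (rd hM (∑ g, z.coeff g * (χ : G → ℂ) g)) ^ p ^ n := by
  classical
  set N := p ^ n with hN
  haveI : NeZero N := ⟨pow_ne_zero _ hM.1.ne_zero⟩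
  let e : Fin N ≃ ZMod N :=
    { toFun := fun i => ((i : ℕ) : ZMod N)
      invFun := fun k => ⟨k.val, ZMod.val_lt k⟩
      left_inv := fun i => Fin.ext (by simp [ZMod.val_natCast, Nat.mod_eq_of_lt i.2])
      right_inv := fun k => ZMod.natCast_zmod_val k }
  have hlist : ∀ f : ZMod N → G, (List.ofFn (fun i : Fin N => f (e i))).prod = wordProd f N := by
    intro f
    rw [wordProd, List.ofFn_eq_map, ← List.map_coe_finRange_eq_range, List.map_map]
    rfl
  have hcls := CharBasics.isClassFunction (CharBasics.isCharacter_of_irr χ.2)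
  have hexp : GF p n z (χ : G → ℂ) 1 = ∑ f : ZMod N → G, (∏ i, z.coeff (f i)) * (χ : G → ℂ) (wordProd f N) := by
    rw [GF, ← hN, pow_eq_sum_words]
    simp only [MonoidAlgebra.coeff_sum, Finset.sum_apply', Finset.sum_mul, one_mul]
    rw [Finset.sum_comm, ← (Equiv.arrowCongr e.symm (Equiv.refl G)).sum_comp]
    refine Finset.sum_congr rfl fun f _ => ?_
    have e1 : Equiv.arrowCongr e.symm (Equiv.refl G) f = fun i => f (e i) := by
      funext i; simp [Equiv.arrowCongr]
    rw [e1, hlist, e.prod_comp (fun i => z.coeff (f i))]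
    simp [MonoidAlgebra.coeff_single, Finsupp.single_apply]
  letI : AddAction (ZMod N) (ZMod N → G) :=
    { vadd := fun k f i => f (i + k)
      zero_vadd := fun f => funext fun i => by show f (i + 0) = f i; rw [add_zero]
      add_vadd := fun k l f => funext fun i => by
        show f (i + (k + l)) = f (i + k + l); rw [add_assoc] }
  set W : (ZMod N → G) → ℂ := fun f => if ∀ i, f i = f 0 then 0 else
    (∏ i, z.coeff (f i)) * (χ : G → ℂ) (wordProd f N) with hW
  obtain ⟨r, hr, hsum⟩ := sum_invariant_eq_mul hM (H := ZMod N) W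
    (fun k f => by
      have hconst : (∀ i, (k +ᵥ f) i = (k +ᵥ f) 0) ↔ ∀ i, f i = f 0 := by
        show (∀ i, f (i + k) = f (0 + k)) ↔ _
        exact ⟨fun h i => by
          have h1 := h (i - k); have h2 := h (0 - k)
          rw [sub_add_cancel] at h1 h2; rw [h1, h2], fun h i => by rw [h (i + k), h (0 + k)]⟩
      simp only [hW]
      refine if_congr hconst rfl ?_
      congr 1
      · exact Equiv.prod_comp (Equiv.addRight k) (fun i => z.coeff (f i))
      · obtain ⟨c, hc⟩ := isConj_iff.1 (isConj_wordProd_add f k).symm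
        show (χ : G → ℂ) (wordProd (fun i => f (i + k)) N) = _
        rw [← hc, hcls])
    (fun f => by
      simp only [hW]
      split_ifs
      · exact memLocalRing_zero hM
      · exact memLocalRing_mul hM (memLocalRing_prod hM _ fun i _ => hz _) (memLocalRing_apply hM χ _))
    p (fun f hf => by
      have hnc : ¬ ∀ i, f i = f 0 := fun h => hf (if_pos h)
      have hdiv : (AddAction.stabilizer (ZMod N) f).index ∣ p ^ n := by
        have h := AddSubgroup.index_dvd_card (AddAction.stabilizer (ZMod N) f)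
        rwa [Nat.card_zmod] at h
      obtain ⟨i, -, hi⟩ := (Nat.dvd_prime_pow hM.1).1 hdiv
      rcases i with _ | i
      · exfalso
        rw [pow_zero, AddSubgroup.index_eq_one] at hi
        refine hnc fun j => ?_
        have h1 : j ∈ AddAction.stabilizer (ZMod N) f := hi ▸ AddSubgroup.mem_top j
        have h2 := congrFun (AddAction.mem_stabilizer_iff.1 h1) 0
        change f (0 + j) = f 0 at h2
        rwa [zero_add] at h2
      · exact hi ▸ dvd_pow_self p i.succ_ne_zero)
  have hmain : GF p n z (χ : G → ℂ) 1 = (p : ℂ) * r + ∑ g, z.coeff g ^ N * (χ : G → ℂ) (g ^ N) := by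
    rw [hexp, ← hsum, ← sub_eq_iff_eq_add', ← Finset.sum_sub_distrib]
    refine Eq.symm ?_
    calc ∑ g, z.coeff g ^ N * (χ : G → ℂ) (g ^ N)
        = ∑ f ∈ Finset.univ.image (fun g : G => fun _ : ZMod N => g),
            (∏ i, z.coeff (f i)) * (χ : G → ℂ) (wordProd f N) := by
          rw [Finset.sum_image fun a _ b _ h => congrFun h 0]
          refine Finset.sum_congr rfl fun g _ => ?_
          simp [wordProd, List.prod_replicate]
      _ = ∑ f : ZMod N → G, ((∏ i, z.coeff (f i)) * (χ : G → ℂ) (wordProd f N) - W f) := by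
          refine (Finset.sum_congr rfl fun f hf => ?_).trans (Finset.sum_subset (Finset.subset_univ _) fun f _ hf => ?_)
          · obtain ⟨g, -, rfl⟩ := Finset.mem_image.1 hf
            simp [hW]
          · simp only [hW]
            rw [if_neg, sub_self]
            exact fun h => hf (Finset.mem_image.2 ⟨f 0, Finset.mem_univ _, funext fun i => (h i).symm⟩)
  have hpow : ∀ g, rd hM ((χ : G → ℂ) (g ^ N)) = rd hM ((χ : G → ℂ) g) ^ N := fun g => by
    obtain ⟨γ, hγ⟩ := BrauerInd.pow_sub_apply_pow hM.1 (CharBasics.isCharacter_of_irr χ.2) g n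
    have hp : rd hM (((χ : G → ℂ) g) ^ N) = rd hM ((χ : G → ℂ) g) ^ N := by
      have key : ∀ (a : ℂ), MemLocalRing M a → ∀ j : ℕ, rd hM (a ^ j) = rd hM a ^ j := fun a ha j => by
        induction j with
        | zero => simp [rd_one]
        | succ j ih => rw [pow_succ, rd_mul hM (memLocalRing_pow hM ha j) ha, ih, pow_succ]
      exact key _ (memLocalRing_apply hM χ g) N
    rw [← hp, eq_comm, rd_congr hM (memLocalRing_pow hM (memLocalRing_apply hM χ g) N) (memLocalRing_apply hM χ _), hN, hγ]
    exact memLocalIdeal_mul_right hM ((memLocalIdeal_natCast_iff hM p).2 dvd_rfl) (memLocalRing_algInt hM γ)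
  have hpz : ∀ g, rd hM (z.coeff g ^ N) = rd hM (z.coeff g) ^ N := fun g => by
    have key : ∀ j : ℕ, rd hM (z.coeff g ^ j) = rd hM (z.coeff g) ^ j := fun j => by
      induction j with
      | zero => simp [rd_one]
      | succ j ih => rw [pow_succ, rd_mul hM (memLocalRing_pow hM (hz g) j) (hz g), ih, pow_succ]
    exact key N
  have hterm : ∀ g, MemLocalRing M (z.coeff g ^ N * (χ : G → ℂ) (g ^ N)) := fun g =>
    memLocalRing_mul hM (memLocalRing_pow hM (hz g) N) (memLocalRing_apply hM χ _)
  rw [hmain, rd_add hM (memLocalRing_mul hM (memLocalRing_natCast hM p) hr) (memLocalRing_sum hM _ fun g _ => hterm g),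
    rd_mul hM (memLocalRing_natCast hM p) hr, (rd_eq_zero hM (memLocalRing_natCast hM p)).2 ((memLocalIdeal_natCast_iff hM p).2 dvd_rfl),
    zero_mul, zero_add, rd_sum hM _ _ fun g _ => hterm g,
    rd_sum hM _ _ (fun g _ => memLocalRing_mul hM (hz g) (memLocalRing_apply hM χ g)), hN, sum_pow_char_pow]
  refine Finset.sum_congr rfl fun g _ => ?_
  rw [← hN, rd_mul hM (memLocalRing_pow hM (hz g) N) (memLocalRing_apply hM χ _),
    rd_mul hM (hz g) (memLocalRing_apply hM χ g), mul_pow, hpz, hpow]

end CfsgLib.NilBlock
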