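import Cfsg.Agent.Blocks.PairAlg.Nilpotent
import Cfsg.Agent.Blocks.Subsection
import Cfsg.Agent.S4688

/-!
# The subsections of a nilpotent block
-/

set_option autoImplicit false
set_option linter.unusedSectionVars false
set_option linter.style.haveILetI false

namespace CfsgLib.NilBlock

open Cfsg CfsgLib.Blocks CfsgLib.PairAlg

attribute [local instance] residueField residue_charP

universe u

variable {p : ℕ} [Fact p.Prime] {M : Ideal AlgInt} {G : Type u} [Group G] [Fintype G]

noncomputable local instance instFintypeSubgroupNilLocal (K : Subgroup G) : Fintype K := Fintype.ofFinite K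

/-- The centralizer of an element. -/
abbrev cen (x : G) : Subgroup G := Subgroup.centralizer ({x} : Set G)

/-- The coefficient function of a block of the centralizer of an element. -/
noncomputable abbrev coef (x : G) (b : Set (IrrCharacter (cen x))) : G → ℂ := subgroupBlockCoeff (cen x) b

theorem centralizer_zpowers_eq (x : G) : Subgroup.centralizer (Subgroup.zpowers x : Set G) = cen x := by
  rw [Subgroup.zpowers_eq_closure, Subgroup.centralizer_closure]

theorem cm_zpowers (g x : G) : cm g (Subgroup.zpowers x) = Subgroup.zpowers (g * x * g⁻¹) :=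
  MonoidHom.map_zpowers _ _

theorem exists_orderOf_eq_of_mem {P : Subgroup G} (hP : IsPGroup p P) {u : G} (hu : u ∈ P) :
    ∃ k : ℕ, orderOf u = p ^ k := by
  obtain ⟨k, hk⟩ := IsPGroup.iff_orderOf.1 hP ⟨u, hu⟩
  exact ⟨k, by simpa [Subgroup.orderOf_mk] using hk⟩

/-- Conjugation between centralizers of elements. -/
def cenConj (g x : G) : cen x ≃* cen (g * x * g⁻¹) where
  toFun c := ⟨g * c * g⁻¹, Subgroup.mem_centralizer_singleton_iff.2 (by
    have h : (c : G) * x = x * c := Subgroup.mem_centralizer_singleton_iff.1 c.2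
    calc g * (c : G) * g⁻¹ * (g * x * g⁻¹) = g * ((c : G) * x) * g⁻¹ := by group
      _ = _ := by rw [h]; group)⟩
  invFun c := ⟨g⁻¹ * c * g, Subgroup.mem_centralizer_singleton_iff.2 (by
    have h : (c : G) * (g * x * g⁻¹) = g * x * g⁻¹ * c := Subgroup.mem_centralizer_singleton_iff.1 c.2
    calc g⁻¹ * (c : G) * g * x = g⁻¹ * ((c : G) * (g * x * g⁻¹)) * g := by group
      _ = _ := by rw [h]; group)⟩
  left_inv c := Subtype.ext (show g⁻¹ * (g * (c : G) * g⁻¹) * g = (c : G) by group)
  right_inv c := Subtype.ext (show g * (g⁻¹ * (c : G) * g) * g⁻¹ = (c : G) by group)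
  map_mul' a b := Subtype.ext (show g * ((a : G) * (b : G)) * g⁻¹ = g * (a : G) * g⁻¹ * (g * (b : G) * g⁻¹) by group)

theorem cen_central_mul {z : G} (hz : z ∈ Subgroup.center G) (x : G) : cen (z * x) = cen x := by
  ext c
  rw [Subgroup.mem_centralizer_singleton_iff, Subgroup.mem_centralizer_singleton_iff]
  have h : c * z = z * c := Subgroup.mem_center_iff.1 hz c
  rw [← mul_assoc, h, mul_assoc, mul_assoc]
  exact mul_right_inj z

variable (hM : IsPModular p M)
include hM

/-- The reduced idempotent of a block of the centralizer of an element. -/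
noncomputable abbrev bb (x : G) (b : Set (IrrCharacter (cen x))) : MonoidAlgebra (Residue hM) G :=
  bl hM (cen x).subtype b

/-- Transport to an equal subgroup. -/
theorem exists_transfer {H K : Subgroup G} (h : H = K) (f : Set (IrrCharacter H)) :
    ∃ b : Set (IrrCharacter K), bl hM K.subtype b = bl hM H.subtype f ∧
      subgroupBlockCoeff K b = subgroupBlockCoeff H f ∧ (IsPBlock M f → IsPBlock M b) ∧
      (IsNilpotentBlock p M f → IsNilpotentBlock p M b) ∧
      (∀ D, IsDefectGroup p M f D → ∃ D', IsDefectGroup p M b D' ∧ Nat.card D' = Nat.card D) ∧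
      (∀ B, IsInducedBlock M K b B ↔ IsInducedBlock M H f B) := by
  subst h
  exact ⟨f, rfl, rfl, id, id, fun D hD => ⟨D, hD, rfl⟩, fun B => Iff.rfl⟩

/-- Equal idempotents on equal subgroups have equal coefficients. -/
theorem coef_eq_of_bl_eq {H K : Subgroup G} (h : H = K) {f : Set (IrrCharacter H)} {g : Set (IrrCharacter K)}
    (hf : IsPBlock M f) (hg : IsPBlock M g) (he : bl hM H.subtype f = bl hM K.subtype g) :
    subgroupBlockCoeff H f = subgroupBlockCoeff K g := by
  subst h
  rw [bl_inj hM _ H.subtype_injective hf hg he]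

theorem bl_eq_of_coef_eq {K : Subgroup G} {f g : Set (IrrCharacter K)}
    (he : subgroupBlockCoeff K f = subgroupBlockCoeff K g) : bl hM K.subtype f = bl hM K.subtype g := by
  have h : blockElt f = blockElt g := by
    ext a
    rw [coeff_blockElt, coeff_blockElt]
    have := congrFun he (a : G)
    simpa [subgroupBlockCoeff, a.2] using this
  rw [bl, bl, h]

theorem eq_of_coef_eq {K : Subgroup G} {f g : Set (IrrCharacter K)} (hf : IsPBlock M f) (hg : IsPBlock M g)
    (he : subgroupBlockCoeff K f = subgroupBlockCoeff K g) : f = g :=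
  bl_inj hM _ K.subtype_injective hf hg (bl_eq_of_coef_eq hM he)

/-- The induced blocks of the centralizer of an element are the pairs of the block. -/
theorem induced_iff_ofBlk {x : G} (hx : ∃ k : ℕ, orderOf x = p ^ k) {b : Set (IrrCharacter (cen x))}
    (hb : IsPBlock M b) {B : Set (IrrCharacter G)} (hB : IsPBlock M B) :
    IsInducedBlock M (cen x) b B ↔ OfBlk p ⊤ (bG hM B) (Subgroup.zpowers x) (bb hM x b) := by
  obtain ⟨f, hf1, -, hf2, -, -, hf3⟩ := exists_transfer hM (centralizer_zpowers_eq x).symm b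
  have hQ := ZStar.isPGroup_zpowers hM.1 hx
  rw [← hf3 B]
  show _ ↔ OfBlk p ⊤ (bG hM B) (Subgroup.zpowers x) (bl hM (cen x).subtype b)
  rw [← hf1]
  refine Iff.trans ?_ (isBrauerPairOf_iff_bc hM hB ⟨hQ, hf2 hb⟩)
  obtain ⟨ξ, hξ⟩ := IsPBlock.nonempty hM (hf2 hb)
  rw [isBrauerPairOf_iff hM hQ hB (hf2 hb) hξ]
  constructor
  · intro hind
    obtain ⟨χ, hχ⟩ := IsPBlock.nonempty hM hB
    classical
    have h1 := ZStar.omega_res_induced hM hind hξ hχ (isClassElt_blockElt B) (isIntegralElt_blockElt hM hB)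
    rwa [omega_blockElt, if_pos hχ] at h1
  · intro h1
    refine ZStar.isInducedBlock_of_not_small hM hQ (fun g => Subgroup.mem_centralizer_iff) (hf2 hb) hB hξ
      fun hs => not_memLocalIdeal_one hM ?_
    simpa using memLocalIdeal_sub hM hs h1

/-- Conjugating a block of a centralizer. -/
theorem exists_conj_block (g x : G) {b : Set (IrrCharacter (cen x))} (hb : IsPBlock M b) :
    ∃ b' : Set (IrrCharacter (cen (g * x * g⁻¹))), IsPBlock M b' ∧ bb hM _ b' = PairAlg.cj g (bb hM x b) ∧
      coef _ b' = fun h => coef x b (g⁻¹ * h * g) := by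
  classical
  refine ⟨pushBlock (cenConj g x) b, isPBlock_pushBlock _ hb,
    (cj_bl hM (cen x).subtype (cen x).subtype_injective (cen (g * x * g⁻¹)).subtype (cenConj g x) g (fun a => rfl) b).symm, funext fun h => ?_⟩
  simp only [coef, subgroupBlockCoeff]
  by_cases hh : h ∈ cen (g * x * g⁻¹)
  · have e : (cenConj g x).symm ⟨h, hh⟩ = ⟨g⁻¹ * h * g, ((cenConj g x).symm ⟨h, hh⟩).2⟩ := rfl
    have hm : g⁻¹ * h * g ∈ cen x := ((cenConj g x).symm ⟨h, hh⟩).2
    rw [dif_pos hh, dif_pos hm, ← e]
    conv_lhs => rw [← (cenConj g x).apply_symm_apply ⟨h, hh⟩]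
    exact blockCoeff_pushBlock _ _ _
  · rw [dif_neg hh, dif_neg]
    intro h'
    refine hh ?_
    have := ((cenConj g x) ⟨_, h'⟩).2
    simpa [cenConj, mul_assoc] using this

/-- The block of the centralizer of `u` below the pair `(P, e)`. -/
def Bel (P : Subgroup G) (e : Set (IrrCharacter (Subgroup.centralizer (P : Set G)))) (x : G)
    (b : Set (IrrCharacter (cen x))) : Prop :=
  x ∈ P ∧ IsPBlock M b ∧ LE' p ⊤ (Subgroup.zpowers x) (bb hM x b) P (bc hM P e)

variable {B : Set (IrrCharacter G)} {P : Subgroup G} {e : Set (IrrCharacter (Subgroup.centralizer (P : Set G)))}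
  (hmax : IsMaximalBrauerPair p M B P e)
include hmax

theorem exists_bel {x : G} (hx : x ∈ P) : ∃ b, Bel hM P e x b := by
  obtain ⟨a, ha⟩ := exists_below (complete (G := G) hM) (isPair_bc hM hmax.1.1) (Subgroup.zpowers_le.2 hx)
  have hp := isPair_of_le' hM hmax ha
  obtain ⟨b, hb, he⟩ := exists_bl hM (cen x).subtype (cen x).subtype_injective
    (K := CH ⊤ (Subgroup.zpowers x)) (by rw [Subgroup.range_subtype, CH_top, centralizer_zpowers_eq]) hp.blk
  exact ⟨b, hx, hb, by rw [bb, he]; exact ha⟩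

theorem Bel.coef_eq {x y : G} {b : Set (IrrCharacter (cen x))} {b' : Set (IrrCharacter (cen y))}
    (h : Bel hM P e x b) (h' : Bel hM P e y b') (hxy : x = y) : coef x b = coef y b' := by
  subst hxy
  exact coef_eq_of_bl_eq hM rfl h.2.1 h'.2.1
    (below_unique (complete (G := G) hM) (isPair_bc hM hmax.1.1) h.2.2 h'.2.2)

/-- The blocks below a maximal pair. -/
theorem Bel.props (hnil : IsNilpotentBlock p M B) {x : G} {b : Set (IrrCharacter (cen x))}
    (h : Bel hM P e x b) :
    IsInducedBlock M (cen x) b B ∧ IsNilpotentBlock p M b ∧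
      ∃ D : Subgroup (cen x), IsDefectGroup p M b D ∧ Nat.card D = Nat.card ↥(P ⊓ cen x) := by
  obtain ⟨hxP, hb, hle⟩ := h
  have hx := exists_orderOf_eq_of_mem hmax.1.1.1 hxP
  refine ⟨(induced_iff_ofBlk hM hx hb hnil.1).2 (ofBlk_of_below hM hmax hle), ?_⟩
  obtain ⟨f, hf1, -, hf2, -, -, -⟩ := exists_transfer hM (centralizer_zpowers_eq x).symm b
  have hQf : IsBrauerPair p M (Subgroup.zpowers x) f := ⟨ZStar.isPGroup_zpowers hM.1 hx, hf2 hb⟩
  have hle' : LE' p ⊤ (Subgroup.zpowers x) (bc hM (Subgroup.zpowers x) f) P (bc hM P e) := by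
    rw [bc, hf1]; exact hle
  have hof := (isBrauerPairOf_iff_bc hM hnil.1 hQf).2 (ofBlk_of_below hM hmax hle')
  obtain ⟨h1, h2⟩ := Cfsg.Agent.S4688.result p M hM B P e hmax hnil (Subgroup.zpowers x) f hof
  have hD := h2 (subpairLE_of_le' hM hQf hmax.1.1 hle')
  obtain ⟨b', hb1, -, hb2, hb3, hb4, -⟩ := exists_transfer hM (centralizer_zpowers_eq x) f
  have hbb : b' = b := bl_inj hM _ (cen x).subtype_injective (hb2 hQf.2) hb (hb1.trans hf1)
  subst hbb
  obtain ⟨D', hD', hcard⟩ := hb4 _ hD
  refine ⟨hb3 h1, D', hD', ?_⟩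
  rw [hcard, ← centralizer_zpowers_eq x, Nat.card_congr (Subgroup.subgroupOfEquivOfLe inf_le_right).toEquiv]

/-- Every subsection of the block is conjugate to one below the maximal pair. -/
theorem exists_conj_bel {x : G} (hx : ∃ k : ℕ, orderOf x = p ^ k) {b : Set (IrrCharacter (cen x))}
    (hb : IsPBlock M b) (hB : IsPBlock M B) (hind : IsInducedBlock M (cen x) b B) :
    ∃ g, ∃ b' : Set (IrrCharacter (cen (g * x * g⁻¹))), Bel hM P e (g * x * g⁻¹) b' ∧
      coef _ b' = fun h => coef x b (g⁻¹ * h * g) := by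
  obtain ⟨g, hg⟩ := exists_conj_below_max hM hmax ((induced_iff_ofBlk hM hx hb hB).1 hind)
  rw [cm_zpowers] at hg
  obtain ⟨b', hb', he, hco⟩ := exists_conj_block hM g x hb
  exact ⟨g, b', ⟨Subgroup.zpowers_le.1 hg.subgroup_le, hb', by rw [he]; exact hg⟩, hco⟩

/-- Subsections below the maximal pair of a nilpotent block are only conjugate inside the defect group. -/
theorem bel_conj (hnil : IsNilpotentBlock p M B) {h x y : G} (hxy : h * x * h⁻¹ = y)
    {b : Set (IrrCharacter (cen x))} {b' : Set (IrrCharacter (cen y))} (hb : Bel hM P e x b)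
    (hb' : Bel hM P e y b') (hco : coef y b' = fun g => coef x b (h⁻¹ * g * h)) :
    ∃ w ∈ P, w * x * w⁻¹ = y := by
  subst hxy
  obtain ⟨c, hc, he, hcc⟩ := exists_conj_block hM h x hb.2.1
  obtain rfl : c = b' := eq_of_coef_eq hM hc hb'.2.1 (hcc.trans hco.symm)
  obtain ⟨F, hF⟩ := exists_blockFusionSystem hM hmax
  have hmv : Mv p P (bc hM P e) h (Subgroup.zpowers x) :=
    ⟨Subgroup.zpowers_le.2 hb.1, bb hM x b, hb.2.2, by rw [cm_zpowers, ← he]; exact hb'.2.2⟩
  have hmem : conjHom (Subgroup.zpowers x) h ∈ F.Hom (Subgroup.zpowers x) :=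
    (mem_hom_iff hM hmax hF).2 ⟨h, fun u => rfl, hmv⟩
  rw [hom_eq_inner_of_nilpotent hM hmax hF hnil] at hmem
  obtain ⟨-, w, hw, hwu⟩ := hmem
  exact ⟨w, hw, (hwu ⟨x, Subgroup.mem_zpowers x⟩).symm⟩

/-- The blocks below are permuted by the defect group. -/
theorem bel_inner {w x : G} (hw : w ∈ P) {b : Set (IrrCharacter (cen x))}
    {b' : Set (IrrCharacter (cen (w * x * w⁻¹)))} (hb : Bel hM P e x b) (hb' : Bel hM P e (w * x * w⁻¹) b') :
    coef _ b' = fun h => coef x b (w⁻¹ * h * w) := by
  obtain ⟨c, hc, he, hcc⟩ := exists_conj_block hM w x hb.2.1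
  have hle : LE' p ⊤ (cm w (Subgroup.zpowers x)) (PairAlg.cj w (bb hM x b)) P (bc hM P e) :=
    le'_cj_of_mem (isMax_bc hM hmax) hb.2.2 hw
  rw [cm_zpowers, ← he] at hle
  rw [← hcc]
  exact Bel.coef_eq hM hmax hb' ⟨hb'.1, hc, hle⟩ rfl

/-- Central translations do not change the blocks below. -/
theorem bel_central {z x : G} (hz : z ∈ Subgroup.center G) (hzP : z ∈ P) {b : Set (IrrCharacter (cen x))}
    {b' : Set (IrrCharacter (cen (z * x)))} (hb : Bel hM P e x b) (hb' : Bel hM P e (z * x) b') :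
    coef _ b' = coef x b := by
  refine coef_eq_of_bl_eq hM (cen_central_mul hz x) hb'.2.1 hb.2.1 ?_
  have hc := complete (G := G) hM
  have hpe := isPair_bc hM hmax.1.1
  set T := Subgroup.zpowers x ⊔ Subgroup.zpowers z with hT
  obtain ⟨δ, hδ⟩ := exists_below hc hpe (show T ≤ P from sup_le (Subgroup.zpowers_le.2 hb.1) (Subgroup.zpowers_le.2 hzP))
  have hCT : Subgroup.centralizer (T : Set G) = cen x := by
    refine le_antisymm ((Subgroup.centralizer_le (SetLike.coe_subset_coe.2 le_sup_left)).trans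
      (centralizer_zpowers_eq x).le) fun c hc' => ?_
    have hle : T ≤ cen c := sup_le
      (Subgroup.zpowers_le.2 (Subgroup.mem_centralizer_singleton_iff.2 (Subgroup.mem_centralizer_singleton_iff.1 hc').symm))
      (Subgroup.zpowers_le.2 (Subgroup.mem_centralizer_singleton_iff.2 (Subgroup.mem_center_iff.1 hz c).symm))
    exact Subgroup.mem_centralizer_iff.2 fun t ht => Subgroup.mem_centralizer_singleton_iff.1 (hle ht)
  have key : ∀ y : G, y ∈ T → cen y = cen x → ∀ a, LE' p ⊤ (Subgroup.zpowers y) a P (bc hM P e) → a = δ := by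
    intro y hy hcy a ha
    have hδp := hδ.isPair hpe
    obtain ⟨a', ha'⟩ := exists_below hc hδp (Subgroup.zpowers_le.2 hy)
    obtain rfl : a' = a := below_unique hc hpe (ha'.trans hδ) ha
    have hn : T ≤ Subgroup.normalizer (Subgroup.zpowers y : Set G) := by
      refine le_trans ?_ (centralizer_le_normalizer _)
      rw [centralizer_zpowers_eq, hcy, ← hCT]
      have hab : cen x ≤ cen x := le_rfl
      refine sup_le ?_ ?_
      · rw [hCT, Subgroup.zpowers_le]
        exact Subgroup.mem_centralizer_singleton_iff.2 rfl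
      · rw [hCT, Subgroup.zpowers_le]
        exact Subgroup.mem_centralizer_singleton_iff.2 (Subgroup.mem_center_iff.1 hz x).symm
    have hs := ha'.nstep hc hδp hn
    have h1 := hs.mul
    have hsupp : Supp (Subgroup.centralizer (T : Set G)) a' := by
      rw [hCT, ← hcy, ← centralizer_zpowers_eq]
      exact hs.left.blk.cen.1.mono inf_le_right
    rw [Br, cut_eq_self hsupp] at h1
    have hK : CH ⊤ T = CH ⊤ (Subgroup.zpowers y) := by
      rw [CH_top, CH_top, hCT, centralizer_zpowers_eq, hcy]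
    rcases hδp.blk.eq_or_mul_eq_zero (hK ▸ hs.left.blk) with h2 | h2
    · exact absurd (h1.symm.trans h2) hδp.blk.ne
    · exact h2.symm
  show bb hM (z * x) b' = bb hM x b
  rw [key x (Subgroup.mem_sup_left (Subgroup.mem_zpowers x)) rfl _ hb.2.2,
    key (z * x) (Subgroup.mul_mem _ (Subgroup.mem_sup_right (Subgroup.mem_zpowers z))
      (Subgroup.mem_sup_left (Subgroup.mem_zpowers x))) (cen_central_mul hz x) _ hb'.2.2]

end CfsgLib.NilBlock
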