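import Cfsg.Agent.Blocks.ContribMatrix
import Cfsg.Agent.Blocks.Section
import Cfsg.Agent.Blocks.NilBlock.Local

/-!
# Section values by coefficient functions
-/

set_option autoImplicit false
set_option linter.unusedSectionVars false
set_option linter.style.haveILetI false

namespace CfsgLib.NilBlock

open Cfsg CfsgLib.Blocks CfsgLib.CharBasics
open scoped ComplexConjugate

universe u

variable {p : ℕ} {M : Ideal AlgInt} {G : Type u} [Group G] [Fintype G]

noncomputable local instance instFintypeSubgroupNilSections (K : Subgroup G) : Fintype K := Fintype.ofFinite K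

/-- The value at `y` on the section of `x`, cut by a coefficient function. -/
noncomputable def SV (p : ℕ) (x : G) (β χ : G → ℂ) (y : G) : ℂ := by
  classical exact if p ∣ orderOf y ∨ ¬ Commute x y then 0 else ∑ h, β h * χ (x * h * y)

/-- The product of two characters on a section. -/
noncomputable def KS (p : ℕ) (x : G) (β ψ φ : G → ℂ) : ℂ := ∑ y, SV p x β ψ y * conj (SV p x β φ y)

theorem SV_of_not {x : G} {β χ : G → ℂ} {y : G} (h : p ∣ orderOf y ∨ ¬ Commute x y) : SV p x β χ y = 0 := by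
  simp [SV, h]

theorem SV_conj (g x : G) (β : G → ℂ) {χ : G → ℂ} (hχ : IsClassFunction G χ) (y : G) :
    SV p (g * x * g⁻¹) (fun h => β (g⁻¹ * h * g)) χ (g * y * g⁻¹) = SV p x β χ y := by
  classical
  have ho : orderOf (g * y * g⁻¹) = orderOf y := (MulAut.conj g).orderOf_eq y
  have hc : Commute (g * x * g⁻¹) (g * y * g⁻¹) ↔ Commute x y := Commute.conj_iff _
  simp only [SV, ho, hc]
  refine if_congr Iff.rfl rfl (Fintype.sum_equiv (MulAut.conj g⁻¹).toEquiv _ _ fun h => ?_)
  simp only [MulEquiv.toEquiv_eq_coe, EquivLike.coe_coe, MulAut.conj_apply, inv_inv]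
  congr 1
  rw [← hχ (x * (g⁻¹ * h * g) * y) g]
  congr 1
  group

theorem KS_conj (g x : G) (β : G → ℂ) {ψ φ : G → ℂ} (hψ : IsClassFunction G ψ) (hφ : IsClassFunction G φ) :
    KS p (g * x * g⁻¹) (fun h => β (g⁻¹ * h * g)) ψ φ = KS p x β ψ φ := by
  refine (Fintype.sum_equiv (MulAut.conj g).toEquiv _ _ fun y => ?_).symm
  simp only [MulEquiv.toEquiv_eq_coe, EquivLike.coe_coe, MulAut.conj_apply, SV_conj g x β hψ, SV_conj g x β hφ]

theorem conj_KS (x : G) (β ψ φ : G → ℂ) : conj (KS p x β ψ φ) = KS p x β φ ψ := by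
  simp only [KS, map_sum, map_mul, Complex.conj_conj]
  exact Finset.sum_congr rfl fun y _ => mul_comm _ _

theorem secVal_eq_SV (x : G) (b : Set (IrrCharacter (cen x))) {χ : G → ℂ} (hχ : IsClassFunction G χ) (y : cen x) :
    secVal p x b χ y = SV p x (coef x b) χ y := by
  classical
  have hc : Commute x (y : G) := (Subgroup.mem_centralizer_singleton_iff.1 y.2).symm
  rw [secVal, SV, Subgroup.orderOf_coe]
  refine if_congr (by simp [hc]) rfl ?_
  rw [← ZStar.sum_blockCoeff_mul b (isClassFunction_shiftFun hχ) y,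
    ← Finset.sum_subset (Finset.subset_univ (Finset.univ.map ⟨fun k : cen x => (k : G), Subtype.val_injective⟩))
      (fun h _ hh => by
        rw [coef, subgroupBlockCoeff, dif_neg, zero_mul]
        exact fun hm => hh (Finset.mem_map.2 ⟨⟨h, hm⟩, Finset.mem_univ _, rfl⟩)), Finset.sum_map]
  refine Finset.sum_congr rfl fun k _ => ?_
  simp [coef, subgroupBlockCoeff, shiftFun, mul_assoc]

theorem KS_eq_sum_secVal (x : G) (b : Set (IrrCharacter (cen x))) {ψ φ : G → ℂ} (hψ : IsClassFunction G ψ)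
    (hφ : IsClassFunction G φ) :
    KS p x (coef x b) ψ φ = ∑ y : cen x, secVal p x b ψ y * conj (secVal p x b φ y) := by
  classical
  rw [KS, ← Finset.sum_subset (Finset.subset_univ (Finset.univ.map ⟨fun k : cen x => (k : G), Subtype.val_injective⟩))
      (fun h _ hh => by
        rw [SV_of_not (Or.inr fun hm => hh (Finset.mem_map.2
          ⟨⟨h, Subgroup.mem_centralizer_singleton_iff.2 hm.symm⟩, Finset.mem_univ _, rfl⟩)), zero_mul]),
    Finset.sum_map]
  exact Finset.sum_congr rfl fun k _ => by rw [secVal_eq_SV x b hψ, secVal_eq_SV x b hφ]; rfl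

theorem SV_central {z : G} (hz : z ∈ Subgroup.center G) (hzp : ∃ k : ℕ, orderOf z = p ^ k) (x : G) (β : G → ℂ)
    (χ : IrrCharacter G) (y : G) :
    SV p (z * x) β χ y = (χ : G → ℂ) z / (χ : G → ℂ) 1 * SV p x β χ y := by
  classical
  have hzc : ∀ a : G, Commute z a := fun a => (Subgroup.mem_center_iff.1 hz a).symm
  have hc : Commute (z * x) y ↔ Commute x y := by
    refine ⟨fun h => ?_, fun h => (hzc y).mul_left h⟩
    have := (hzc y).inv_left.mul_left h
    rwa [inv_mul_cancel_left] at this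
  have hval : ∀ a : G, (χ : G → ℂ) (z * a) = (χ : G → ℂ) z / (χ : G → ℂ) 1 * (χ : G → ℂ) a := by
    intro a
    have h := sum_conj_apply_mul χ.2 z a
    have e : ∀ c : G, c * z * c⁻¹ = z := fun c => by rw [← (hzc c).eq, mul_inv_cancel_right]
    simp only [e, Finset.sum_const, Finset.card_univ, ← Nat.card_eq_fintype_card, nsmul_eq_mul] at h
    have h1 := apply_one_ne_zero χ.2
    have hG : (Nat.card G : ℂ) ≠ 0 := Nat.cast_ne_zero.2 Nat.card_pos.ne'
    field_simp
    exact mul_left_cancel₀ hG (by linear_combination h)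
  simp only [SV, hc]
  split_ifs
  · simp
  · rw [Finset.mul_sum]
    refine Finset.sum_congr rfl fun h _ => ?_
    rw [mul_assoc z x, mul_assoc z, hval]
    ring

theorem exists_pp (hp : p.Prime) : ∃ pp : G → G, ∀ g, IsPPart p g (pp g) := by
  refine Classical.skolem.1 fun g => ?_
  obtain ⟨x, y, hxy, hc, hx, hy, -, -⟩ := ZStar.exists_pPart hp g
  exact ⟨x, y, hxy, hc, hx, hy⟩

/-- Summation by sections. -/
theorem sum_by_sections (hp : p.Prime) (F : G → ℂ) (S : Finset G)
    (hS : ∀ x, x ∈ S ↔ ∃ k : ℕ, orderOf x = p ^ k) :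
    ∑ g, F g = ∑ x ∈ S, ∑ y : cen x, if p ∣ orderOf y then 0 else F (x * y) := by
  classical
  obtain ⟨pp, hpp⟩ := exists_pp (G := G) hp
  rw [← Finset.sum_fiberwise_of_maps_to (g := pp) (t := S) fun g _ => (hS _).2 (hpp g).choose_spec.2.2.1]
  refine Finset.sum_congr rfl fun x hx => ?_
  rw [Finset.sum_ite, Finset.sum_const_zero, zero_add]
  refine (Finset.sum_bij' (fun g hg => (⟨x⁻¹ * g, ?_⟩ : cen x)) (fun y _ => x * (y : G)) (fun g hg => ?_)
    (fun y hy => ?_) (fun g hg => by simp) (fun y hy => by simp) (fun g hg => by simp))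
  · obtain ⟨y, hy, hc, -, -⟩ := hpp g
    rw [(Finset.mem_filter.1 hg).2] at hy hc
    rw [← hy, inv_mul_cancel_left]
    exact Subgroup.mem_centralizer_singleton_iff.2 hc.eq.symm
  · obtain ⟨y, hy, hc, -, hyreg⟩ := hpp g
    rw [(Finset.mem_filter.1 hg).2] at hy
    have e : x⁻¹ * g = y := inv_mul_eq_iff_eq_mul.2 hy.symm
    simp only [Finset.mem_filter, Finset.mem_univ, true_and, Subgroup.orderOf_mk, e]
    exact hyreg
  · simp only [Finset.mem_filter, Finset.mem_univ, true_and] at hy ⊢
    exact isPPart_unique hp (hpp _) ⟨y, rfl, (Subgroup.mem_centralizer_singleton_iff.1 y.2).symm,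
      (hS x).1 hx, by rwa [Subgroup.orderOf_coe]⟩

variable (hM : IsPModular p M)
include hM

/-- Different blocks are orthogonal on the regular elements. -/
theorem regSum_eq_zero {H : Type*} [Group H] [Fintype H] {b b' : Set (IrrCharacter H)} (hb : IsPBlock M b)
    (hb' : IsPBlock M b') (hne : b ≠ b') {ξ η : IrrCharacter H} (hξ : ξ ∈ b) (hη : η ∈ b') :
    regSum p (ξ : H → ℂ) (η : H → ℂ) = 0 := by
  rw [regSum_eq_regInt hM.1 (isCharacter_of_irr ξ.2) (isCharacter_of_irr η.2),
    regInt_eq_zero_of_notMem hM hb hξ fun h => hne (IsPBlock.eq_of_mem hM hb hb' h hη)]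
  simp

theorem sum_secVal_cross {x : G} {b b' : Set (IrrCharacter (cen x))} (hb : IsPBlock M b) (hb' : IsPBlock M b')
    (hne : b ≠ b') (ψ φ : G → ℂ) :
    ∑ y : cen x, secVal p x b ψ y * conj (secVal p x b' φ y) = 0 := by
  classical
  haveI : Fintype (IrrCharacter (cen x)) := @Fintype.ofFinite _ finite_irrCharacter
  calc ∑ y : cen x, secVal p x b ψ y * conj (secVal p x b' φ y) =
      ∑ ξ ∈ memFinset b, ∑ η ∈ memFinset b', classInner (shiftFun x ψ) (ξ : cen x → ℂ) *
        conj (classInner (shiftFun x φ) (η : cen x → ℂ)) * regSum p (ξ : cen x → ℂ) (η : cen x → ℂ) := by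
        simp only [regSum, Finset.mul_sum]
        rw [Finset.sum_congr rfl (fun ξ _ => Finset.sum_comm), Finset.sum_comm (s := memFinset b)]
        refine Finset.sum_congr rfl fun y _ => ?_
        simp only [secVal, ZStar.blockPart_apply, ← Finset.sum_filter, ← memFinset_eq]
        split_ifs
        · simp
        · rw [map_sum, Finset.sum_mul_sum]
          refine Finset.sum_congr rfl fun ξ _ => Finset.sum_congr rfl fun η _ => ?_
          rw [map_mul]
          ring
    _ = 0 := Finset.sum_eq_zero fun ξ hξ => Finset.sum_eq_zero fun η hη => by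
        rw [regSum_eq_zero hM hb hb' hne (mem_memFinset.1 hξ) (mem_memFinset.1 hη), mul_zero]

/-- A column of a subsection against the whole section. -/
theorem sum_secVal_col [Fintype (IrrCharacter G)] {x : G} (hx : ∃ k : ℕ, orderOf x = p ^ k)
    {b : Set (IrrCharacter (cen x))} (hb : IsPBlock M b) {y w : cen x} (hy : ¬ p ∣ orderOf y)
    (hw : ¬ p ∣ orderOf w) :
    ∑ χ : IrrCharacter G, secVal p x b (χ : G → ℂ) y * conj (shiftFun x (χ : G → ℂ) w) = blockKernel b y w := by
  classical
  haveI : Fintype (IrrCharacter (cen x)) := @Fintype.ofFinite _ finite_irrCharacter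
  simp only [secVal_eq_kernel hM hb _ hy, mul_assoc, Finset.sum_mul, ← Finset.mul_sum]
  rw [Finset.sum_comm]
  have hcls : IsClassFunction (cen x) (fun z => blockKernel b y z) := fun v d => by
    show blockKernel b y (d * v * d⁻¹) = blockKernel b y v
    simp only [blockKernel_eq]
    exact Finset.sum_congr rfl fun ξ _ => by rw [isClassFunction (isCharacter_of_irr ξ.2) v d]
  have hin : ∀ z : cen x,
      ∑ χ : IrrCharacter G, (if p ∣ orderOf z then 0 else shiftFun x (χ : G → ℂ) z) *
        (blockKernel b y z * conj (shiftFun x (χ : G → ℂ) w)) =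
      if IsConj w z then (Nat.card (Subgroup.centralizer ({w} : Set (cen x))) : ℂ) * blockKernel b y z else 0 := by
    intro z
    by_cases hz : p ∣ orderOf z
    · simp [hz, blockKernel_eq_zero hM hb hy hz]
    · simp only [hz, if_false]
      rw [show ∑ χ : IrrCharacter G, shiftFun x (χ : G → ℂ) z * (blockKernel b y z * conj (shiftFun x (χ : G → ℂ) w)) =
          blockKernel b y z * ∑ χ : IrrCharacter G, shiftFun x (χ : G → ℂ) z * conj (shiftFun x (χ : G → ℂ) w) by
        rw [Finset.mul_sum]; exact Finset.sum_congr rfl fun χ _ => by ring, sum_shift_col hx hM.1 hz hw]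
      by_cases hc : IsConj w z
      · rw [if_pos hc, if_pos hc.symm, card_centralizer_eq hc, mul_comm]
      · rw [if_neg hc, if_neg (fun h => hc h.symm), mul_zero]
  rw [Finset.sum_congr rfl (fun z _ => hin z), sum_class_mul hcls w,
    inv_mul_cancel_left₀ (Nat.cast_ne_zero.2 Nat.card_pos.ne')]

/-- Two different subsections at the same element are orthogonal. -/
theorem sum_irr_secVal_cross [Fintype (IrrCharacter G)] {x : G} (hx : ∃ k : ℕ, orderOf x = p ^ k)
    {b b' : Set (IrrCharacter (cen x))} (hb : IsPBlock M b) (hb' : IsPBlock M b') (hne : b ≠ b') (y y' : cen x) :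
    ∑ χ : IrrCharacter G, secVal p x b (χ : G → ℂ) y * conj (secVal p x b' (χ : G → ℂ) y') = 0 := by
  classical
  by_cases hy : p ∣ orderOf y
  · exact Finset.sum_eq_zero fun χ _ => by rw [secVal, if_pos hy, zero_mul]
  by_cases hy' : p ∣ orderOf y'
  · exact Finset.sum_eq_zero fun χ _ => by
      rw [show secVal p x b' (χ : G → ℂ) y' = 0 from if_pos hy', map_zero, mul_zero]
  haveI : Fintype (IrrCharacter (cen x)) := @Fintype.ofFinite _ finite_irrCharacter
  simp only [secVal_eq_kernel hM hb' _ hy', map_mul, map_sum, map_inv₀, Complex.conj_natCast, Finset.mul_sum]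
  rw [Finset.sum_comm]
  have e : ∀ w : cen x, ∑ χ : IrrCharacter G, secVal p x b (χ : G → ℂ) y *
      ((Nat.card (cen x) : ℂ)⁻¹ * (conj (if p ∣ orderOf w then 0 else shiftFun x (χ : G → ℂ) w) *
        conj (blockKernel b' y' w))) =
      (Nat.card (cen x) : ℂ)⁻¹ * (blockKernel b y w * blockKernel b' w y') := by
    intro w
    by_cases hw : p ∣ orderOf w
    · simp [hw, blockKernel_eq_zero hM hb hy hw]
    · simp only [hw, if_false, conj_blockKernel, ← sum_secVal_col hM hx hb hy hw, Finset.sum_mul, Finset.mul_sum]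
      exact Finset.sum_congr rfl fun χ _ => by ring
  rw [Finset.sum_congr rfl fun w _ => e w, ← Finset.mul_sum]
  simp only [blockKernel_eq, Finset.sum_mul_sum]
  rw [Finset.sum_comm, Finset.sum_eq_zero fun ξ hξ => ?_, mul_zero]
  rw [Finset.sum_comm]
  refine Finset.sum_eq_zero fun η hη => ?_
  have hξη : ξ ≠ η := fun h => hne (IsPBlock.eq_of_mem hM hb hb' (Finset.mem_filter.1 hξ).2 (h ▸ (Finset.mem_filter.1 hη).2))
  rw [show ∑ w : cen x, (ξ : cen x → ℂ) y * conj ((ξ : cen x → ℂ) w) * ((η : cen x → ℂ) w * conj ((η : cen x → ℂ) y')) =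
      (ξ : cen x → ℂ) y * conj ((η : cen x → ℂ) y') * ∑ w : cen x, (η : cen x → ℂ) w * conj ((ξ : cen x → ℂ) w) by
    rw [Finset.mul_sum]; exact Finset.sum_congr rfl fun w _ => by ring, sum_mul_conj, if_neg (Ne.symm hξη), mul_zero]

/-- Sections at non-conjugate elements are orthogonal. -/
theorem sum_irr_secVal_of_not_isConj [Fintype (IrrCharacter G)] {x x' : G} (hx : ∃ k : ℕ, orderOf x = p ^ k)
    (hx' : ∃ k : ℕ, orderOf x' = p ^ k) (hnc : ¬ IsConj x x')
    {b : Set (IrrCharacter (cen x))} (hb : IsPBlock M b) {b' : Set (IrrCharacter (cen x'))} (hb' : IsPBlock M b')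
    (y : cen x) (y' : cen x') :
    ∑ χ : IrrCharacter G, secVal p x b (χ : G → ℂ) y * conj (secVal p x' b' (χ : G → ℂ) y') = 0 := by
  classical
  by_cases hy : p ∣ orderOf y
  · exact Finset.sum_eq_zero fun χ _ => by rw [secVal, if_pos hy, zero_mul]
  by_cases hy' : p ∣ orderOf y'
  · exact Finset.sum_eq_zero fun χ _ => by
      rw [show secVal p x' b' (χ : G → ℂ) y' = 0 from if_pos hy', map_zero, mul_zero]
  simp only [secVal_eq_kernel hM hb _ hy, secVal_eq_kernel hM hb' _ hy', map_mul, map_sum, map_inv₀,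
    Complex.conj_natCast, Finset.mul_sum, Finset.sum_mul]
  rw [Finset.sum_comm]
  refine Finset.sum_eq_zero fun w _ => ?_
  rw [Finset.sum_comm]
  refine Finset.sum_eq_zero fun z _ => ?_
  by_cases hz : p ∣ orderOf z
  · simp [hz]
  by_cases hw : p ∣ orderOf w
  · simp [hw]
  simp only [hz, hw, if_false, shiftFun]
  have hpz : IsPPart p (x * (z : G)) x :=
    ⟨z, rfl, (Subgroup.mem_centralizer_singleton_iff.1 z.2).symm, hx, by rwa [Subgroup.orderOf_coe]⟩
  have hpw : IsPPart p (x' * (w : G)) x' :=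
    ⟨w, rfl, (Subgroup.mem_centralizer_singleton_iff.1 w.2).symm, hx', by rwa [Subgroup.orderOf_coe]⟩
  have hnc' : ¬ IsConj (x * (z : G)) (x' * (w : G)) := by
    intro h
    obtain ⟨c, hc⟩ := isConj_iff.1 h
    exact hnc (isConj_iff.2 ⟨c, isPPart_unique hM.1 (hc ▸ isPPart_conj hpz c) hpw⟩)
  rw [show ∑ χ : IrrCharacter G, (Nat.card (cen x) : ℂ)⁻¹ * ((χ : G → ℂ) (x * z) * blockKernel b y z) *
      ((Nat.card (cen x') : ℂ)⁻¹ * (conj ((χ : G → ℂ) (x' * w)) * conj (blockKernel b' y' w))) =
    (Nat.card (cen x) : ℂ)⁻¹ * (Nat.card (cen x') : ℂ)⁻¹ * blockKernel b y z * conj (blockKernel b' y' w) *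
      ∑ χ : IrrCharacter G, (χ : G → ℂ) (x * z) * conj ((χ : G → ℂ) (x' * w)) by
    rw [Finset.mul_sum]; exact Finset.sum_congr rfl fun χ _ => by ring, sum_col, if_neg hnc', mul_zero]

/-- A member outside the block contributes nothing. -/
theorem secVal_eq_zero_of_notMem' {x : G} (hx : ∃ k : ℕ, orderOf x = p ^ k) {b : Set (IrrCharacter (cen x))}
    {B : Set (IrrCharacter G)} (hind : IsInducedBlock M (cen x) b B) {χ : IrrCharacter G} (hχ : χ ∉ B) (y : cen x) :
    secVal p x b (χ : G → ℂ) y = 0 := by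
  refine secVal_eq_zero hM hx hind.1 (isPBlock_blockOf M χ) (mem_blockOf_self hM χ) (fun h => hχ ?_) y
  obtain ⟨ξ, hξ⟩ := IsPBlock.nonempty hM hind.1
  obtain ⟨χ₀, hχ₀⟩ := IsPBlock.nonempty hM hind.2.1
  rw [IsPBlock.eq_blockOf hM hind.2.1 hχ₀]
  intro g
  simpa using memLocalIdeal_sub hM (h.2.2 ξ hξ χ (mem_blockOf_self hM χ) g) (hind.2.2 ξ hξ χ₀ hχ₀ g)

end CfsgLib.NilBlock
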