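import Cfsg.Agent.Blocks.NilBlock.Lifted

/-!
# A pair and an element adapted to a member of height zero
-/

set_option autoImplicit false
set_option linter.unusedSectionVars false
set_option linter.style.haveILetI false

namespace CfsgLib.NilBlock

open Cfsg CfsgLib.Blocks CfsgLib.PairAlg
open scoped ComplexConjugate

attribute [local instance] CfsgLib.Blocks.residueField CfsgLib.Blocks.residue_charP

universe u

variable {p : ℕ} [Fact p.Prime] {M : Ideal AlgInt} {G : Type u} [Group G] [Fintype G] (hM : IsPModular p M)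

noncomputable local instance instFintypeSubgroupNilSetup (K : Subgroup G) : Fintype K := Fintype.ofFinite K

variable {B : Set (IrrCharacter G)} {P : Subgroup G}
include hM

theorem exists_defectGroup (hB : IsPBlock M B) : ∃ D : Subgroup G, IsDefectGroup p M B D := by
  obtain ⟨g, hg⟩ := exists_defectClass hM hB
  exact ⟨_, g, hg, default, rfl⟩

/-- Every pair of the block on a defect group is maximal. -/
theorem isMaximal_of_defect (hB : IsPBlock M B) (hP : IsDefectGroup p M B P)
    {f : Set (IrrCharacter (Subgroup.centralizer (P : Set G)))} (hf : IsBrauerPair p M P f)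
    (hof : OfBlk p ⊤ (bG hM B) P (bc hM P f)) : IsMaximalBrauerPair p M B P f := by
  refine ⟨(isBrauerPairOf_iff_bc hM hB hf).2 hof, fun R g hR hle => ?_⟩
  obtain ⟨-, hle'⟩ := le'_of_subpairLE hM hle hR.1
  have hPR := hle'.subgroup_le
  have hofR := (isBrauerPairOf_iff_bc hM hB hR.1).1 hR
  have h1 := le_dmax (p := p) hR.1.1 (le_top : R ≤ ⊤) hofR.br_ne
  have h2 : dmax p ⊤ (bG hM B) = p ^ blockDefect p B := by
    have := dmax_range hM (MonoidHom.id G) id_injective hB
    rwa [range_id] at this
  rw [h2, ← card_defectGroup hM hB hP] at h1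
  exact (Subgroup.eq_of_le_of_card_ge hPR h1).symm

/-- Some member of height zero is trivial on the central part of the defect group. -/
theorem exists_height_zero_trivial (hB : IsPBlock M B) (hP : IsDefectGroup p M B P) :
    ∃ χ ∈ B, (∀ ρ ∈ B, degExp p χ ≤ degExp p ρ) ∧
      sInf ((fun φ : IrrCharacter G => (charDegree (φ : G → ℂ)).factorization p) '' B) = degExp p χ ∧
      ∀ z ∈ P, z ∈ Subgroup.center G → (χ : G → ℂ) z = (χ : G → ℂ) 1 := by
  classical
  set Z := P ⊓ Subgroup.center G with hZ
  haveI : Z.Normal := ⟨fun n hn g => by rw [Subgroup.mem_center_iff.1 hn.2 g, mul_inv_cancel_right]; exact hn⟩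
  have hZp : IsPGroup p Z := (isPGroup_of_isDefectGroup hP).to_le inf_le_left
  obtain ⟨Bb, hBb, hinfl, hD⟩ := exists_contained_block (N := Z) hM hZp hB hP
  haveI : Fintype (G ⧸ Z) := Fintype.ofFinite _
  obtain ⟨φ, hφ, -, hφs⟩ := exists_min_degExp hM hBb
  obtain ⟨χ₁, hχ₁, hmin₁, hs₁⟩ := exists_min_degExp hM hB
  have hdeg : degExp p (inflChar φ) = degExp p φ := rfl
  have hker : (P.map (QuotientGroup.mk' Z)).comap (QuotientGroup.mk' Z) = P := by
    rw [Subgroup.comap_map_eq, QuotientGroup.ker_mk']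
    exact sup_eq_left.2 inf_le_left
  have hcard : Nat.card (P.map (QuotientGroup.mk' Z)) * Nat.card Z = Nat.card P := by
    have e1 := Subgroup.card_mul_index (P.map (QuotientGroup.mk' Z))
    have e2 := Subgroup.card_mul_index P
    have e3 : P.index = (P.map (QuotientGroup.mk' Z)).index := by
      conv_lhs => rw [← hker]
      exact Subgroup.index_comap_of_surjective _ (QuotientGroup.mk'_surjective Z)
    rw [Subgroup.card_eq_card_quotient_mul_card_subgroup Z, ← e1, e3] at e2
    refine Nat.eq_of_mul_eq_mul_right (m := (P.map (QuotientGroup.mk' Z)).index)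
      (Nat.pos_of_ne_zero Subgroup.index_ne_zero_of_finite) ?_
    rw [e2]; ring
  have hG : Nat.card G = Nat.card (G ⧸ Z) * Nat.card Z := Subgroup.card_eq_card_quotient_mul_card_subgroup Z
  rw [card_defectGroup hM hB hP, card_defectGroup hM hBb hD, blockDefect_eq hs₁, blockDefect_eq hφs] at hcard
  obtain ⟨t, ht⟩ := IsPGroup.iff_card.1 hZp
  rw [ht, ← pow_add] at hcard
  have hexp := Nat.pow_right_injective hM.1.two_le hcard
  have hf : (Nat.card G).factorization p = (Nat.card (G ⧸ Z)).factorization p + t := by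
    rw [hG, Nat.factorization_mul Nat.card_pos.ne' Nat.card_pos.ne', Finsupp.add_apply, ht,
      Nat.factorization_pow, Finsupp.smul_apply, hM.1.factorization_self, smul_eq_mul, mul_one]
  have h1 := degExp_le hM.1 χ₁
  have h2 := degExp_le hM.1 φ
  have hle := hmin₁ _ (hinfl φ hφ)
  rw [hdeg] at hle
  have heq : degExp p (inflChar φ) = degExp p χ₁ := by rw [hdeg]; omega
  refine ⟨inflChar φ, hinfl φ hφ, fun ρ hρ => heq ▸ hmin₁ ρ hρ, hs₁.trans heq.symm, fun z hzP hzc => ?_⟩
  rw [inflChar_coe]
  show (φ : G ⧸ Z → ℂ) _ = (φ : G ⧸ Z → ℂ) _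
  rw [(QuotientGroup.eq_one_iff z).2 (show z ∈ Z from Subgroup.mem_inf.2 ⟨hzP, hzc⟩), QuotientGroup.mk_one]

/-- A maximal pair and a lifted element only seen by the blocks below it. -/
theorem exists_good (hnil : IsNilpotentBlock p M B) (hP : IsDefectGroup p M B P) {χ : IrrCharacter G} (hχ : χ ∈ B)
    (hs : sInf ((fun φ : IrrCharacter G => (charDegree (φ : G → ℂ)).factorization p) '' B) = degExp p χ) :
    ∃ (e : Set (IrrCharacter (Subgroup.centralizer (P : Set G)))) (hmax : IsMaximalBrauerPair p M B P e)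
      (z : MonoidAlgebra ℂ G), (∀ g, MemLocalRing M (z.coeff g)) ∧
      (∀ u ∈ P, ∀ g, z.coeff (u * g * u⁻¹) = z.coeff g) ∧
      ¬ MemLocalIdeal M (∑ g, z.coeff g * (χ : G → ℂ) g) ∧
      ∀ u ∈ P, ∀ b : Set (IrrCharacter (cen u)), IsPBlock M b → b ≠ belb hM hmax u →
        ∀ c, MemLocalIdeal M ((blockElt b * ZStar.res (cen u) z).coeff c) := by
  classical
  have hc := complete (G := G) hM
  have hPp := isPGroup_of_isDefectGroup hP
  obtain ⟨g, hg, S, hPS⟩ := id hP
  have hgP : g ∈ Subgroup.centralizer (P : Set G) := Subgroup.mem_centralizer_iff.2 fun q hq => by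
    rw [hPS] at hq
    obtain ⟨s, -, rfl⟩ := hq
    exact Subgroup.mem_centralizer_singleton_iff.1 s.2
  have hgχ : ¬ MemLocalIdeal M ((χ : G → ℂ) g) := by
    have := apply_mul_notMem hM hnil.1 hg (Commute.one_left g) ⟨0, by simp⟩ hχ hs
    rwa [one_mul] at this
  -- the functional given by the character
  let τ : MonoidAlgebra (Residue hM) G →ₗ[Residue hM] Residue hM :=
    { toFun := fun x => ∑ c, x.coeff c * rd hM ((χ : G → ℂ) c)
      map_add' := fun x y => by simp [MonoidAlgebra.coeff_add, add_mul, Finset.sum_add_distrib]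
      map_smul' := fun r x => by simp [MonoidAlgebra.coeff_smul, Finset.mul_sum, mul_assoc] }
  have hτ : ∀ x, τ x = ∑ c, x.coeff c * rd hM ((χ : G → ℂ) c) := fun x => rfl
  have hτmul : ∀ x y, τ (x * y) = ∑ a, ∑ b, x.coeff a * y.coeff b * rd hM ((χ : G → ℂ) (a * b)) := by
    intro x y
    simp only [hτ, PairAlg.coeff_mul_eq, Finset.sum_mul]
    rw [Finset.sum_comm]
    refine Finset.sum_congr rfl fun a _ => ?_
    refine (Fintype.sum_equiv (Equiv.mulLeft a) _ _ fun b => ?_).symm
    simp
  have hcyc : ∀ x y, τ (x * y) = τ (y * x) := fun x y => by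
    rw [hτmul, hτmul, Finset.sum_comm]
    exact Finset.sum_congr rfl fun b _ => Finset.sum_congr rfl fun a _ => by
      rw [CharBasics.apply_mul_comm (CharBasics.isCharacter_of_irr χ.2) a b]; ring
  set E := bG hM B with hE
  have hEB : IsBlk ⊤ E := by
    have := isBlk_bl hM (MonoidHom.id G) id_injective hnil.1
    rwa [range_id] at this
  have hτE : ∀ x, τ (E * x) = τ x := by
    intro x
    rw [hτmul, Finset.sum_comm, hτ]
    refine Finset.sum_congr rfl fun b _ => ?_
    have hco : ∀ a : G, E.coeff a = rd hM (blockCoeff B a) := fun a => by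
      rw [hE, bG, bl, show a = (MonoidHom.id G) a from rfl, coeff_up hM _ id_injective, coeff_blockElt]
      rfl
    rw [Finset.sum_congr rfl (g := fun a => x.coeff b * rd hM (blockCoeff B a * (χ : G → ℂ) (a * b))) fun a _ => by
      rw [hco, rd_mul hM (memLocalRing_blockCoeff hM hnil.1 _) (memLocalRing_apply hM χ _)]; ring, ← Finset.mul_sum]
    congr 1
    rw [← rd_sum hM _ _ fun a _ => memLocalRing_mul hM (memLocalRing_blockCoeff hM hnil.1 a) (memLocalRing_apply hM χ _)]
    congr 1
    rw [ZStar.sum_blockCoeff_mul B (CharBasics.isClassFunction (CharBasics.isCharacter_of_irr χ.2))]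
    haveI : Fintype (IrrCharacter G) := @Fintype.ofFinite _ CharBasics.finite_irrCharacter
    rw [ZStar.blockPart_apply, Finset.sum_eq_single χ (fun ψ _ hne => ?_) (by simp), if_pos hχ,
      CharBasics.classInner_irr, if_pos rfl, one_mul]
    rw [CharBasics.classInner_irr, if_neg (Ne.symm hne), zero_mul]
    simp
  have hτBr : ∀ x, Fix P x → τ (Br P x) = τ x := by
    intro x hx
    letI : MulAction P G :=
      { smul := fun u c => (u : G) * c * (u : G)⁻¹
        one_smul := fun c => by show ((1 : P) : G) * c * ((1 : P) : G)⁻¹ = c; simp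
        mul_smul := fun a b c => by
          show ((a * b : P) : G) * c * ((a * b : P) : G)⁻¹ = (a : G) * ((b : G) * c * (b : G)⁻¹) * (a : G)⁻¹
          push_cast; group }
    have h := sum_eq_sum_fixed (k := Residue hM) hPp (fun c : G => x.coeff c * rd hM ((χ : G → ℂ) c))
      (fun s c => by
        show x.coeff ((s : G) * c * (s : G)⁻¹) * rd hM ((χ : G → ℂ) ((s : G) * c * (s : G)⁻¹)) = _
        rw [hx.coeff s.2, CharBasics.isClassFunction (CharBasics.isCharacter_of_irr χ.2) c (s : G)])
    rw [hτ x, h, hτ, Finset.sum_filter]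
    refine Finset.sum_congr rfl fun c _ => ?_
    by_cases hcm : c ∈ Subgroup.centralizer (P : Set G)
    · rw [Br, coeff_cut_of_mem _ hcm, if_pos]
      intro s
      show (s : G) * c * (s : G)⁻¹ = c
      rw [Subgroup.mem_centralizer_iff.1 hcm s s.2, mul_inv_cancel_right]
    · rw [Br, coeff_cut_of_notMem _ hcm, zero_mul, if_neg]
      intro hall
      exact hcm (Subgroup.mem_centralizer_iff.2 fun q hq => mul_inv_eq_iff_eq_mul.1 (hall ⟨q, hq⟩))
  -- choosing the pair
  set gh : MonoidAlgebra (Residue hM) G := MonoidAlgebra.single g 1 with hgh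
  have hghS : ∀ {R : Subgroup G}, R ≤ P → Supp (Subgroup.centralizer (R : Set G)) gh := by
    intro R hR c hc'
    rw [hgh, MonoidAlgebra.coeff_single, Finsupp.single_apply] at hc'
    split_ifs at hc' with h
    · exact h ▸ Subgroup.centralizer_le (SetLike.coe_subset_coe.2 hR) hgP
    · exact absurd rfl hc'
  have hghF : Fix P gh := fix_of_supp_centralizer (hghS le_rfl)
  have hτg : τ gh ≠ 0 := by
    rw [hτ, Finset.sum_eq_single g (fun c _ hne => by simp [hgh, MonoidAlgebra.coeff_single, Ne.symm hne]) (by simp)]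
    simp only [hgh, MonoidAlgebra.coeff_single, Finsupp.single_apply, if_true, one_mul]
    rwa [Ne, rd_eq_zero hM (memLocalRing_apply hM χ g)]
  obtain ⟨s, hsblk, hs1⟩ := hc (CH ⊤ P)
  obtain ⟨a, has, haτ⟩ : ∃ a ∈ s, τ (a * gh) ≠ 0 := by
    by_contra hcon
    push Not at hcon
    exact hτg (by rw [← one_mul gh, ← hs1, Finset.sum_mul, map_sum]; exact Finset.sum_eq_zero hcon)
  have hab := hsblk a has
  have hEF : Fix P E := fix_of_cenIn hEB.cen le_top
  have haS : Supp (Subgroup.centralizer (P : Set G)) a := hab.cen.1.mono inf_le_right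
  have haF : Fix P (a * gh) := (fix_of_supp_centralizer haS).mul hghF
  have hcomE : a * Br P E = Br P E * a := hab.cen.comm (cenIn_br_top hEB.cen).1
  have hpair : IsPair p ⊤ P a := ⟨hPp, le_top, hab⟩
  have haE : a * Br P E = a := by
    refine (hab.mul_idem (cenIn_br_top hEB.cen) (by rw [← br_mul hPp hEF hEF, hEB.idem])).resolve_left fun h0 => haτ ?_
    rw [← hτE, ← hτBr _ (hEF.mul haF), br_mul hPp hEF haF,
      show Br P (a * gh) = a * gh from cut_eq_self (haS.mul (hghS le_rfl)), ← mul_assoc, ← hcomE, h0, zero_mul, map_zero]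
  have hofa : OfBlk p ⊤ E P a := ⟨hEB, hpair, haE⟩
  obtain ⟨f, hf, rfl⟩ := exists_bc hM hpair
  have hmax := isMaximal_of_defect hM hnil.1 hP hf hofa
  -- the source idempotent
  let Φ : MonoidAlgebra (Residue hM) G →ₗ[Residue hM] Residue hM :=
    τ ∘ₗ LinearMap.mulRight (Residue hM) gh ∘ₗ LinearMap.mulLeft (Residue hM) (bc hM P f) ∘ₗ Br P
  have hΦ' : ∀ x, Φ x = τ (bc hM P f * Br P x * gh) := fun x => rfl
  obtain ⟨i, hiF, hii, -, hiΦ, hsrc⟩ := exists_source hc hofa Φ
    (fun x _ h0 => by rw [hΦ', h0, zero_mul, map_zero])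
    (by rw [hΦ', haE]; exact haτ)
  set A := i * gh * i with hA
  have hAF : Fix P A := (hiF.mul hghF).mul hiF
  have hBrA : ∀ R, R ≤ P → Br R A = Br R i * gh * Br R i := by
    intro R hR
    have hRp := hPp.to_le hR
    rw [hA, br_mul hRp ((hiF.mul hghF).mono hR) (hiF.mono hR), br_mul hRp (hiF.mono hR) (hghF.mono hR),
      show Br R gh = gh from cut_eq_self (hghS hR)]
  have hτA : τ A ≠ 0 := by
    rw [← hτBr A hAF, hBrA P le_rfl, hcyc, ← mul_assoc, ← br_mul hPp hiF hiF, hii]
    have h1 := hsrc P _ LE'.refl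
    have h2 : bc hM P f * Br P i = Br P i * bc hM P f :=
      hpair.blk.cen.comm fun x hx => ⟨Subgroup.mem_top x, supp_cut _ _ x hx⟩
    rw [← h1, ← h2]
    exact hiΦ
  choose sct hs1' hs2' using exists_rd hM
  refine ⟨f, hmax, ofFun fun c => sct (A.coeff c), fun c => by rw [coeff_ofFun]; exact hs1' _,
    fun u hu c => by rw [coeff_ofFun, coeff_ofFun, hAF.coeff hu], ?_, fun u hu b hb hne c => ?_⟩
  · intro hmem
    refine hτA ?_
    rw [hτ]
    rw [← rd_eq_zero hM (memLocalRing_sum hM _ fun c _ => memLocalRing_mul hM (by rw [coeff_ofFun]; exact hs1' _)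
      (memLocalRing_apply hM χ c)), rd_sum hM _ _ (fun c _ => memLocalRing_mul hM (by rw [coeff_ofFun]; exact hs1' _)
      (memLocalRing_apply hM χ c))] at hmem
    rw [← hmem]
    refine Finset.sum_congr rfl fun c _ => ?_
    rw [coeff_ofFun, rd_mul hM (hs1' _) (memLocalRing_apply hM χ c), hs2']
  · set w := ZStar.res (cen u) (ofFun fun c => sct (A.coeff c)) with hw
    have hwI : IsIntegralElt M w := fun c => by rw [hw, ZStar.coeff_res, coeff_ofFun]; exact hs1' _
    have hbI := isIntegralElt_blockElt hM hb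
    set R := Subgroup.zpowers u with hR
    have hRP : R ≤ P := Subgroup.zpowers_le.2 hu
    have hup : up hM (cen u).subtype w = Br R A := by
      ext x
      by_cases hx : x ∈ cen u
      · rw [show x = (cen u).subtype ⟨x, hx⟩ from rfl, coeff_up hM _ (cen u).subtype_injective, hw, ZStar.coeff_res,
          coeff_ofFun, hs2', Br, coeff_cut_of_mem _ (by rw [hR, centralizer_zpowers_eq]; exact hx)]
        rfl
      · rw [coeff_up_of_notMem hM _ _ (by rw [Subgroup.range_subtype]; exact hx), Br,
          coeff_cut_of_notMem _ (by rw [hR, centralizer_zpowers_eq]; exact hx)]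
    obtain ⟨-, hb0, hle⟩ := belb_spec hM hmax hu
    have hγ := hsrc R _ hle
    have hγp := hle.isPair hpair
    set γ := bb hM u (belb hM hmax u) with hγdef
    have hγc : γ * Br R i = Br R i * γ :=
      hγp.blk.cen.comm fun x hx => ⟨Subgroup.mem_top x, supp_cut _ _ x hx⟩
    have hne' : bb hM u b * γ = 0 := by
      rcases (isBlk_bl hM (cen u).subtype (cen u).subtype_injective hb).eq_or_mul_eq_zero
        (isBlk_bl hM (cen u).subtype (cen u).subtype_injective hb0) with h | h
      all_goals first | exact h | exact absurd (bl_inj hM _ (cen u).subtype_injective hb hb0 h) hne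
    have h0 : up hM (cen u).subtype (blockElt b * w) = 0 := by
      rw [up_mul hM _ hbI hwI, hup, hBrA R hRP, ← hγ, ← hγc,
        show up hM (cen u).subtype (blockElt b) = bb hM u b from rfl]
      simp only [← mul_assoc, hne', zero_mul]
    rw [← rd_eq_zero hM ((hbI.mul hM hwI) c), ← coeff_up hM (cen u).subtype (cen u).subtype_injective, h0]
    simp

end CfsgLib.NilBlock
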