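import Cfsg.Agent.Blocks.PairAlg.Pairs

/-!
# An idempotent fixed by `P` whose truncations only meet the pairs below a given one
-/

set_option autoImplicit false
set_option linter.unusedSectionVars false
set_option linter.style.haveILetI false

namespace CfsgLib.NilBlock

open CfsgLib.PairAlg

variable {k : Type*} [Field k] {G : Type*} [Group G] [Fintype G] {p : ℕ} [Fact p.Prime] [CharP k p]

theorem fix_br {R T : Subgroup G} (hn : T ≤ Subgroup.normalizer (R : Set G)) {a : MonoidAlgebra k G}
    (ha : Fix T a) : Fix T (Br R a) := fix_of_coeff fun u hu x => by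
  have key : ∀ v ∈ T, ∀ y, y ∈ Subgroup.centralizer (R : Set G) → v * y * v⁻¹ ∈ Subgroup.centralizer (R : Set G) := by
    intro v hv y hy
    refine Subgroup.mem_centralizer_iff.2 fun q hq => ?_
    have hq' : v⁻¹ * q * v ∈ R := by
      simpa using (Subgroup.mem_normalizer_iff.1 (Subgroup.inv_mem _ (hn hv)) q).1 hq
    calc q * (v * y * v⁻¹) = v * ((v⁻¹ * q * v) * y) * v⁻¹ := by group
      _ = v * (y * (v⁻¹ * q * v)) * v⁻¹ := by rw [Subgroup.mem_centralizer_iff.1 hy _ hq']
      _ = _ := by group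
  by_cases hx : x ∈ Subgroup.centralizer (R : Set G)
  · rw [Br, coeff_cut_of_mem _ hx, coeff_cut_of_mem _ (key u hu x hx), ha.coeff hu]
  · rw [Br, coeff_cut_of_notMem _ hx, coeff_cut_of_notMem]
    exact fun h => hx (by simpa [mul_assoc] using key u⁻¹ (T.inv_mem hu) _ h)

/-- An element with a non-nilpotent power pattern gives an idempotent in the algebra it generates. -/
theorem exists_idem (y : MonoidAlgebra k G) (hy : ¬ IsNilpotent y) :
    ∃ v ∈ Algebra.adjoin k ({y} : Set (MonoidAlgebra k G)), (y * v) * (y * v) = y * v ∧ y * v ≠ 0 := by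
  set A := Algebra.adjoin k ({y} : Set (MonoidAlgebra k G)) with hA
  letI : CommRing A := Algebra.adjoinCommRingOfComm k (by simp)
  haveI : FiniteDimensional k A := inferInstanceAs (FiniteDimensional k A.toSubmodule)
  haveI : IsArtinian A A := isArtinian_of_tower k inferInstance
  set r : A := ⟨y, Algebra.subset_adjoin rfl⟩ with hr
  obtain ⟨n, w, hw⟩ := IsArtinian.exists_pow_succ_smul_dvd r (1 : A)
  simp only [smul_eq_mul, mul_one] at hw
  set m := n + 1 with hm
  have hw' : r ^ (m + 1) * w = r ^ m := by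
    rw [pow_succ' r m, mul_assoc, hw, ← pow_succ']
  have hit : ∀ j : ℕ, r ^ (m + j) * w ^ j = r ^ m := by
    intro j
    induction j with
    | zero => simp
    | succ j ih =>
      calc r ^ (m + (j + 1)) * w ^ (j + 1) = r ^ j * (r ^ (m + 1) * w) * w ^ j := by ring
        _ = r ^ (m + j) * w ^ j := by rw [hw']; ring
        _ = r ^ m := ih
  refine ⟨((r ^ n * w ^ m : A) : MonoidAlgebra k G), (r ^ n * w ^ m).2, ?_, ?_⟩
  · have h : (r * (r ^ n * w ^ m)) * (r * (r ^ n * w ^ m)) = r * (r ^ n * w ^ m) := by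
      calc _ = r ^ (m + m) * w ^ m * w ^ m := by rw [hm]; ring
        _ = _ := by rw [hit, hm]; ring
    exact congrArg Subtype.val h
  · intro h0
    apply hy
    refine ⟨m, ?_⟩
    have h : r * (r ^ n * w ^ m) = 0 := Subtype.ext h0
    have h2 : r ^ m = 0 := by
      rw [← hit m, pow_add, mul_assoc, show r ^ m * w ^ m = r * (r ^ n * w ^ m) by rw [hm]; ring, h, mul_zero]
    exact congrArg Subtype.val h2

/-- The lift to a bigger `p`-group of an element with exact stabilizers. -/
theorem exists_lift_fix {P R : Subgroup G} (hP : IsPGroup p P) (hlt : R < P) {d : MonoidAlgebra k G}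
    (hS : Supp (Subgroup.centralizer (R : Set G)) d) (hF : Fix (P ⊓ Subgroup.normalizer (R : Set G)) d)
    (hst : ∀ u ∈ P, ∀ c, d.coeff c ≠ 0 → u * c = c * u → u ∈ Subgroup.normalizer (R : Set G) → u ∈ R) :
    ∃ a : MonoidAlgebra k G, Fix P a ∧ Br R a = d ∧ Br P a = 0 := by
  classical
  -- the stabilizer in `P` of a point of the support is `R`
  have hstab : ∀ c, d.coeff c ≠ 0 → P ⊓ Subgroup.centralizer ({c} : Set G) = R := by
    intro c hc
    have hR : R ≤ P ⊓ Subgroup.centralizer ({c} : Set G) := le_inf hlt.le fun q hq =>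
      Subgroup.mem_centralizer_singleton_iff.2 (Subgroup.mem_centralizer_iff.1 (hS c hc) q hq)
    refine (hR.antisymm ?_).symm
    by_contra hne
    set T := P ⊓ Subgroup.centralizer ({c} : Set G) with hT
    haveI : Group.IsNilpotent T := (hP.to_le inf_le_left).isNilpotent
    have h1 := normalizerCondition_of_isNilpotent (G := T) (R.subgroupOf T)
      (lt_top_iff_ne_top.2 fun htop => hne (Subgroup.subgroupOf_eq_top.1 htop))
    obtain ⟨x, hx, hxR⟩ := SetLike.exists_of_lt h1
    refine hxR (hst x x.2.1 c hc (Subgroup.mem_centralizer_singleton_iff.1 x.2.2) (Subgroup.mem_normalizer_iff.2 fun q => ?_))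
    constructor
    · intro hq
      exact (Subgroup.mem_normalizer_iff.1 hx ⟨q, hR hq⟩).1 hq
    · intro hq
      have hqT : q ∈ T := by
        have := T.mul_mem (T.mul_mem (T.inv_mem x.2) (hR hq)) x.2
        simpa [mul_assoc] using this
      exact (Subgroup.mem_normalizer_iff.1 hx ⟨q, hqT⟩).2 hq
  -- well defined on orbits
  have hwd : ∀ u ∈ P, ∀ c, d.coeff c ≠ 0 → u * c * u⁻¹ ∈ Subgroup.centralizer (R : Set G) →
      d.coeff (u * c * u⁻¹) = d.coeff c := by
    intro u hu c hc huc
    refine hF.coeff (u := u) ⟨hu, ?_⟩ c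
    have hle : R ≤ R.map (MulAut.conj u).toMonoidHom := by
      intro q hq
      have h1 : u⁻¹ * q * u ∈ P ⊓ Subgroup.centralizer ({c} : Set G) := by
        refine ⟨P.mul_mem (P.mul_mem (P.inv_mem hu) (hlt.le hq)) hu, Subgroup.mem_centralizer_singleton_iff.2 ?_⟩
        calc u⁻¹ * q * u * c = u⁻¹ * (q * (u * c * u⁻¹)) * u := by group
          _ = u⁻¹ * ((u * c * u⁻¹) * q) * u := by rw [Subgroup.mem_centralizer_iff.1 huc q hq]
          _ = _ := by group
      rw [hstab c hc] at h1
      exact ⟨_, h1, by simp [mul_assoc]⟩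
    have heq := Subgroup.eq_of_le_of_card_ge hle
      (Nat.card_congr (R.equivMapOfInjective _ (MulAut.conj u).injective).toEquiv).ge
    refine Subgroup.mem_normalizer_iff.2 fun q => ⟨fun hq => ?_, fun hq => ?_⟩
    · rw [heq]; exact ⟨q, hq, by simp⟩
    · rw [heq] at hq
      obtain ⟨t, ht, he⟩ := hq
      simp only [MulEquiv.toMonoidHom_eq_coe, MonoidHom.coe_coe, MulAut.conj_apply] at he
      exact mul_left_cancel (mul_right_cancel he) ▸ ht
  let val : G → k := fun g => if h : ∃ u ∈ P, d.coeff (u * g * u⁻¹) ≠ 0 then d.coeff (h.choose * g * h.choose⁻¹) else 0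
  have hval : ∀ g, ∀ u ∈ P, d.coeff (u * g * u⁻¹) ≠ 0 → val g = d.coeff (u * g * u⁻¹) := by
    intro g u hu hne
    have h : ∃ u ∈ P, d.coeff (u * g * u⁻¹) ≠ 0 := ⟨u, hu, hne⟩
    simp only [val, dif_pos h]
    obtain ⟨hw, hwne⟩ := h.choose_spec
    have e : h.choose * g * h.choose⁻¹ = (h.choose * u⁻¹) * (u * g * u⁻¹) * (h.choose * u⁻¹)⁻¹ := by group
    rw [e]
    exact hwd _ (P.mul_mem hw (P.inv_mem hu)) _ hne (e ▸ hS _ hwne)
  set a : MonoidAlgebra k G := ∑ g, MonoidAlgebra.single g (val g) with ha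
  have hca : ∀ g, a.coeff g = val g := fun g => by
    simp [ha, MonoidAlgebra.coeff_sum, MonoidAlgebra.coeff_single, Finsupp.single_apply, Finsupp.finsetSum_apply]
  refine ⟨a, fix_of_coeff fun t ht x => ?_, ?_, ?_⟩
  · rw [hca, hca]
    by_cases h : ∃ u ∈ P, d.coeff (u * x * u⁻¹) ≠ 0
    · obtain ⟨u, hu, hne⟩ := h
      have e : (u * t⁻¹) * (t * x * t⁻¹) * (u * t⁻¹)⁻¹ = u * x * u⁻¹ := by group
      rw [hval x u hu hne, hval _ _ (P.mul_mem hu (P.inv_mem ht)) (e.symm ▸ hne), e]
    · simp only [val, dif_neg h]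
      rw [dif_neg]
      rintro ⟨u, hu, hne⟩
      exact h ⟨u * t, P.mul_mem hu ht, by simpa [mul_assoc] using hne⟩
  · ext x
    by_cases hx : x ∈ Subgroup.centralizer (R : Set G)
    · rw [Br, coeff_cut_of_mem _ hx, hca]
      by_cases h : ∃ u ∈ P, d.coeff (u * x * u⁻¹) ≠ 0
      · obtain ⟨u, hu, hne⟩ := h
        have e : u⁻¹ * (u * x * u⁻¹) * u⁻¹⁻¹ = x := by group
        have := hwd u⁻¹ (P.inv_mem hu) _ hne (e.symm ▸ hx)
        rw [e] at this
        rw [hval x u hu hne, this]
      · simp only [val, dif_neg h]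
        by_contra h0
        exact h ⟨1, P.one_mem, by simpa using Ne.symm h0⟩
    · rw [Br, coeff_cut_of_notMem _ hx]
      by_contra h0
      exact hx (hS x (Ne.symm h0))
  · ext x
    by_cases hx : x ∈ Subgroup.centralizer (P : Set G)
    · rw [Br, coeff_cut_of_mem _ hx, hca]
      simp only [val]
      rw [dif_neg]
      · simp
      rintro ⟨u, hu, hne⟩
      have e : u * x * u⁻¹ = x := by rw [Subgroup.mem_centralizer_iff.1 hx u hu, mul_inv_cancel_right]
      rw [e] at hne
      refine hlt.not_ge ?_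
      rw [← hstab x hne]
      exact le_inf le_rfl fun q hq => Subgroup.mem_centralizer_singleton_iff.2 (Subgroup.mem_centralizer_iff.1 hx q hq)
    · rw [Br, coeff_cut_of_notMem _ hx]; simp

/-- An idempotent at a pair whose truncations only meet the pairs below it, with a linear form not vanishing. -/
theorem exists_source (hc : Complete k G) {P : Subgroup G} {E e : MonoidAlgebra k G} (h : OfBlk p ⊤ E P e)
    (Φ : MonoidAlgebra k G →ₗ[k] k) (hΦ : ∀ x, Fix P x → e * Br P x = 0 → Φ x = 0) (hE : Φ E ≠ 0) :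
    ∃ i : MonoidAlgebra k G, Fix P i ∧ i * i = i ∧ i * E = i ∧ Φ i ≠ 0 ∧
      ∀ R γ, LE' p ⊤ R γ P e → Br R i * γ = Br R i := by
  classical
  let rk : MonoidAlgebra k G → ℕ := fun i => Module.finrank k (LinearMap.range (LinearMap.mulLeft k i))
  set S := {i : MonoidAlgebra k G | Fix P i ∧ i * i = i ∧ i * E = i ∧ Φ i ≠ 0} with hS
  have hex : ∃ n, ∃ i ∈ S, rk i = n := ⟨_, E, ⟨fix_of_cenIn h.1.cen le_top, h.1.idem, h.1.idem, hE⟩, rfl⟩
  obtain ⟨i, hi, hmin⟩ := Nat.find_spec hex
  obtain ⟨hiF, hii, hiE, hiΦ⟩ := hi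
  have hPp := h.2.1.isP
  -- no idempotent of the corner dies at the pair
  have key : ∀ x, Fix P x → x * x = x → i * x = x → x * i = x → e * Br P x = 0 → x = 0 := by
    intro x hxF hxx hix hxi hx0
    by_contra hne
    have hS' : i - x ∈ S := by
      refine ⟨hiF.sub hxF, ?_, ?_, ?_⟩
      · rw [sub_mul, mul_sub, mul_sub, hii, hxx, hix, hxi]; abel
      · rw [sub_mul, hiE]
        conv_lhs => rw [← hxi, mul_assoc, hiE, hxi]
      · rw [map_sub, hΦ x hxF hx0, sub_zero]; exact hiΦ
    have hle : LinearMap.range (LinearMap.mulLeft k (i - x)) ≤ LinearMap.range (LinearMap.mulLeft k i) := by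
      rintro _ ⟨z, rfl⟩
      exact ⟨(i - x) * z, by simp only [LinearMap.mulLeft_apply, ← mul_assoc, mul_sub, hii, hix]⟩
    have hlt : rk (i - x) < rk i := by
      refine Submodule.finrank_lt_finrank_of_lt (lt_of_le_of_ne hle fun heq => ?_)
      have hmem : x ∈ LinearMap.range (LinearMap.mulLeft k (i - x)) := heq ▸ ⟨x, hix⟩
      obtain ⟨z, hz⟩ := hmem
      simp only [LinearMap.mulLeft_apply] at hz
      apply hne
      rw [← hxx]
      conv_lhs => arg 2; rw [← hz]
      rw [← mul_assoc, mul_sub, hxi, hxx, sub_self, zero_mul]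
    exact absurd (Nat.find_min hex (hmin ▸ hlt)) (fun h' => h' ⟨i - x, hS', rfl⟩)
  -- elements of the corner dying at the pair are nilpotent
  have key2 : ∀ y, Fix P y → i * y = y → y * i = y → e * Br P y = 0 → IsNilpotent y := by
    intro y hyF hiy hyi hy0
    by_contra hnil
    obtain ⟨v, hv, hidem, hne⟩ := exists_idem y hnil
    have hvp : Fix P v ∧ y * v = v * y := by
      clear hne hidem
      induction hv using Algebra.adjoin_induction with
      | mem a ha => rw [Set.mem_singleton_iff] at ha; subst ha; exact ⟨hyF, rfl⟩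
      | algebraMap c =>
        refine ⟨?_, (Algebra.commutes c y).symm⟩
        rw [Algebra.algebraMap_eq_smul_one]
        exact (fix_one P).smul c
      | add a b _ _ ha hb => exact ⟨ha.1.add hb.1, by rw [mul_add, add_mul, ha.2, hb.2]⟩
      | mul a b _ _ ha hb => exact ⟨ha.1.mul hb.1, by rw [← mul_assoc, ha.2, mul_assoc, hb.2, mul_assoc]⟩
    refine hne (key _ (hyF.mul hvp.1) hidem (by rw [← mul_assoc, hiy]) ?_ ?_)
    · rw [hvp.2, mul_assoc, hyi]
    · rw [br_mul hPp hyF hvp.1, ← mul_assoc, hy0, zero_mul]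
  refine ⟨i, hiF, hii, hiE, hiΦ, ?_⟩
  suffices main : ∀ (n : ℕ) (R : Subgroup G) γ, Nat.card P - Nat.card R ≤ n → LE' p ⊤ R γ P e →
      Br R i * γ = Br R i from fun R γ hle => main _ R γ le_rfl hle
  intro n
  induction n using Nat.strong_induction_on with
  | _ n ih =>
    intro R γ hn hle
    have hRP := hle.subgroup_le
    have hp := hle.isPair h.2.1
    have hγc : ∀ a : MonoidAlgebra k G, Supp (Subgroup.centralizer (R : Set G)) a → γ * a = a * γ :=
      fun a ha => hp.blk.cen.comm fun x hx => ⟨Subgroup.mem_top x, ha x hx⟩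
    set d := Br R i - Br R i * γ with hd
    have hBi : Br R i * Br R i = Br R i := by rw [← br_mul hp.isP (hiF.mono hRP) (hiF.mono hRP), hii]
    have hBc : γ * Br R i = Br R i * γ := hγc _ (supp_cut _ _)
    have hBid : Br R i * d = d := by rw [hd, mul_sub, ← mul_assoc, hBi]
    have hdBi : d * Br R i = d := by rw [hd, sub_mul, hBi, mul_assoc, hBc, ← mul_assoc, hBi]
    have hdd : d * d = d := by
      conv_lhs => arg 2; rw [hd]
      rw [mul_sub, hdBi, ← mul_assoc, hdBi, sub_eq_self]
      rw [hd, sub_mul, mul_assoc, hp.blk.idem, sub_self]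
    suffices hd0 : d = 0 from (sub_eq_zero.1 (hd ▸ hd0)).symm
    -- it is enough to find a nilpotent preimage
    suffices hy : ∃ a, Fix P a ∧ Br R a = d ∧ e * (Br P i * Br P a * Br P i) = 0 by
      obtain ⟨a, haF, haR, ha0⟩ := hy
      have hyF : Fix P (i * a * i) := (hiF.mul haF).mul hiF
      obtain ⟨m, hm⟩ := key2 (i * a * i) hyF (by rw [← mul_assoc, ← mul_assoc, hii]) (by rw [mul_assoc, hii])
        (by rw [br_mul hPp (hiF.mul haF) hiF, br_mul hPp hiF haF]; exact ha0)
      have h1 : Br R (i * a * i) = d := by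
        rw [br_mul hp.isP ((hiF.mul haF).mono hRP) (hiF.mono hRP), br_mul hp.isP (hiF.mono hRP) (haF.mono hRP),
          haR, hBid, hdBi]
      have h2 := congrArg (Br R) hm
      rw [br_pow hp.isP (hyF.mono hRP), h1, map_zero] at h2
      rcases m with _ | m
      · rw [pow_zero] at h2
        rw [← mul_one d, h2, mul_zero]
      · rwa [IsIdempotentElem.pow_succ_eq m hdd] at h2
    have hdS : Supp (Subgroup.centralizer (R : Set G)) d :=
      (supp_cut _ _).sub ((supp_cut _ _).mul (hp.blk.cen.1.mono inf_le_right))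
    rcases hRP.eq_or_lt with hR | hlt
    · subst hR
      obtain rfl : γ = e := below_unique hc h.2.1 hle LE'.refl
      have hBd : Br R d = d := cut_eq_self hdS
      refine ⟨d, fix_of_supp_centralizer hdS, hBd, ?_⟩
      rw [hBd, hBid, hdBi, hd, mul_sub, ← hBc, ← mul_assoc, hp.blk.idem, sub_self]
    set N := P ⊓ Subgroup.normalizer (R : Set G) with hN
    have hstep : ∀ T, R < T → T ≤ N → Br T d = 0 := by
      intro T hRT hTN
      obtain ⟨δ, hδ⟩ := exists_below hc h.2.1 (hTN.trans inf_le_left)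
      have hδp := hδ.isPair h.2.1
      obtain ⟨γ', hγ'⟩ := exists_below hc hδp hRT.le
      obtain rfl : γ' = γ := below_unique hc h.2.1 (hγ'.trans hδ) hle
      have hs := hγ'.nstep hc hδp (hTN.trans inf_le_right)
      have hT : Br T i * δ = Br T i := by
        refine ih _ ?_ T δ le_rfl hδ
        have h1 : Nat.card R < Nat.card T := lt_of_le_of_ne (Subgroup.card_le_of_le hRT.le)
          fun h' => hRT.ne (Subgroup.eq_of_le_of_card_ge hRT.le h'.ge)
        have h2 : Nat.card T ≤ Nat.card P := Subgroup.card_le_of_le (hTN.trans inf_le_left)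
        omega
      have hTi : Fix T i := hiF.mono (hTN.trans inf_le_left)
      rw [hd, map_sub, br_mul hδp.isP (fix_br (hTN.trans inf_le_right) hTi) hs.fix, br_br hRT.le]
      conv_lhs => arg 2; rw [← hT, mul_assoc, hs.mul]
      rw [hT, sub_self]
    obtain ⟨δ, hδ⟩ := exists_below hc h.2.1 (inf_le_left : N ≤ P)
    have hFN : Fix N d := by
      have hδp := hδ.isPair h.2.1
      obtain ⟨γ', hγ'⟩ := exists_below hc hδp (le_inf hlt.le Subgroup.le_normalizer : R ≤ N)
      obtain rfl : γ' = γ := below_unique hc h.2.1 (hγ'.trans hδ) hle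
      exact (fix_br inf_le_right (hiF.mono inf_le_left)).sub
        ((fix_br inf_le_right (hiF.mono inf_le_left)).mul (hγ'.nstep hc hδp inf_le_right).fix)
    obtain ⟨a, haF, haR, haP⟩ := exists_lift_fix hPp hlt hdS hFN fun u hu c hc' huc hun => by
      by_contra huR
      set T := N ⊓ Subgroup.centralizer ({c} : Set G) with hT
      have hRT : R < T := by
        refine lt_of_le_of_ne (le_inf (le_inf hlt.le Subgroup.le_normalizer) fun q hq =>
          Subgroup.mem_centralizer_singleton_iff.2 (Subgroup.mem_centralizer_iff.1 (hdS c hc') q hq)) fun heq => huR ?_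
        rw [heq]
        exact ⟨⟨hu, hun⟩, Subgroup.mem_centralizer_singleton_iff.2 huc⟩
      have h0 := congrArg (fun t => t.coeff c) (hstep T hRT inf_le_left)
      have hcT : c ∈ Subgroup.centralizer (T : Set G) :=
        Subgroup.mem_centralizer_iff.2 fun q hq => Subgroup.mem_centralizer_singleton_iff.1 hq.2
      simp only [Br, coeff_cut_of_mem _ hcT] at h0
      exact hc' (by simpa using h0)
    exact ⟨a, haF, haR, by rw [haP, mul_zero, zero_mul, mul_zero]⟩

end CfsgLib.NilBlock
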