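import Cfsg.Agent.Blocks.NilBlock.Induction

/-!
# The theorem on nilpotent blocks
-/

set_option autoImplicit false
set_option linter.unusedSectionVars false
set_option linter.style.haveILetI false

namespace CfsgLib.NilBlock

open Cfsg CfsgLib.Blocks CfsgLib.CharBasics

universe u

variable {p : ℕ} [Fact p.Prime] {M : Ideal AlgInt} {G : Type u} [Group G] [Fintype G] (hM : IsPModular p M)
  {B : Set (IrrCharacter G)} (hnil : IsNilpotentBlock p M B) {P : Subgroup G} (hP : IsDefectGroup p M B P)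

noncomputable local instance instFintypeSubgroupNilTheorem (K : Subgroup G) : Fintype K := Fintype.ofFinite K

include hM hnil hP

/-- The data attached to a member of height zero. -/
theorem exists_stage :
    ∃ (e : Set (IrrCharacter (Subgroup.centralizer (P : Set G)))) (hmax : IsMaximalBrauerPair p M B P e)
      (χ : IrrCharacter G), χ ∈ B ∧ (∀ ρ ∈ B, degExp p χ ≤ degExp p ρ) ∧
      (∀ z ∈ P, z ∈ Subgroup.center G → (χ : G → ℂ) z = (χ : G → ℂ) 1) ∧
      (∀ ψ : IrrCharacter G, RO M P (fpsi hM hmax χ ψ)) ∧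
      ∀ ψ ∈ B, ∀ y : G, ¬ p ∣ orderOf y → (ψ : G → ℂ) y = fpsi hM hmax χ ψ 1 * (χ : G → ℂ) y := by
  classical
  obtain ⟨χ, hχ, hmin, hs, hχZ⟩ := exists_height_zero_trivial hM hnil.1 hP
  obtain ⟨e, hmax, w, hw, hwP, hwχ, hsmall⟩ := exists_good hM hnil hP hχ hs
  have hprop : ∀ (x : P) (ψ : IrrCharacter G) (y : G), SV p (x : G) (cf hM hmax (x : G)) (ψ : G → ℂ) y =
      fpsi hM hmax χ ψ x * SV p (x : G) (cf hM hmax (x : G)) (χ : G → ℂ) y := fun x =>
    SV_of_rank_one hM hmax hnil x.2 (blockRank_eq_one hM (belb_props hM hmax hnil x.2).2.1) hχ hmin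
  refine ⟨e, hmax, χ, hχ, hmin, hχZ,
    fun ψ => ro_of_prop hM hmax χ hnil hχ hmin hχZ hw hwP hwχ hsmall fun x => hprop x ψ, fun ψ hψ y hy => ?_⟩
  have h := hprop 1 ψ y
  rw [Subgroup.coe_one] at h
  rwa [SV_of_center hM hmax hnil P.one_mem (Subgroup.one_mem _) hψ hy,
    SV_of_center hM hmax hnil P.one_mem (Subgroup.one_mem _) hχ hy, one_mul] at h

/-- The members are natural multiples of one of them on the regular elements. -/
theorem exists_natural :
    ∃ χ₀ ∈ B, ∀ ψ ∈ B, ∃ d : ℕ, ∀ x : G,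
      pRegularPart p (ψ : G → ℂ) x = (d : ℂ) * pRegularPart p (χ₀ : G → ℂ) x := by
  classical
  obtain ⟨e, hmax, χ, hχ, hmin, hχZ, -, hprop⟩ := exists_stage hM hnil hP
  refine ⟨χ, hχ, fun ψ hψ => ?_⟩
  obtain ⟨q, hq, -, -⟩ := fpsi_one_eq hM hmax χ hnil hχ hmin hχZ hψ
  have h1 : ¬ p ∣ orderOf (1 : G) := by rw [orderOf_one]; exact hM.1.not_dvd_one
  have he := hprop ψ hψ 1 h1
  rw [hq, apply_one (isCharacter_of_irr ψ.2), apply_one (isCharacter_of_irr χ.2)] at he
  have hez : ((charDegree (ψ : G → ℂ) : ℕ) : ℤ) = q * (charDegree (χ : G → ℂ) : ℕ) := by exact_mod_cast he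
  have hq0 : 0 ≤ q := by
    refine nonneg_of_mul_nonneg_left (b := ((charDegree (χ : G → ℂ) : ℕ) : ℤ)) ?_ (by exact_mod_cast charDegree_pos χ.2)
    rw [← hez]
    exact Int.natCast_nonneg _
  refine ⟨q.toNat, fun x => ?_⟩
  rw [pRegularPart_apply, pRegularPart_apply]
  split_ifs with hx
  · rw [mul_zero]
  · rw [hprop ψ hψ x hx, hq]
    congr 1
    exact_mod_cast (Int.toNat_of_nonneg hq0).symm

/-- The characters of the block match those of the defect group, heights matching degrees. -/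
theorem exists_bijection :
    ∃ Φ : B ≃ IrrCharacter P, ∀ ψ : B, blockHeight p B ((ψ : IrrCharacter G) : G → ℂ) =
      (charDegree ((Φ ψ : IrrCharacter P) : P → ℂ)).factorization p := by
  classical
  haveI : Fintype (IrrCharacter G) := @Fintype.ofFinite _ finite_irrCharacter
  obtain ⟨e, hmax, χ, hχ, hmin, hχZ, hRO, -⟩ := exists_stage hM hnil hP
  have hall : ∀ (θ : IrrCharacter P) (φ : IrrCharacter G),
      acoef hM hmax χ θ φ = 0 ∨ RO M P (fpsi hM hmax χ φ) := fun θ φ => Or.inr (hRO φ)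
  have hex := fun ψ : B => exists_fpsi_eq hM hmax χ hnil hχ hmin hχZ ψ.2 (fun θ _ => hall θ)
  choose Φ hΦ1 hΦe hΦu using hex
  have hne : ∀ ψ : B, acoef hM hmax χ (Φ ψ) (ψ : IrrCharacter G) ≠ 0 := fun ψ h0 => by
    have := hΦ1 ψ
    rw [h0, norm_zero] at this
    exact zero_ne_one this
  have hbij : Function.Bijective Φ := by
    refine ⟨fun ψ φ h => Subtype.ext (by_contra fun hne' => hne ψ (h ▸ hΦu φ ψ hne')), fun θ => ?_⟩
    obtain ⟨ψ, h1, h2⟩ := exists_unique_support hM hmax χ hnil hχ hmin hχZ θ (hall θ)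
    have h0 : acoef hM hmax χ θ ψ ≠ 0 := fun h0 => by rw [h0, norm_zero] at h1; exact zero_ne_one h1
    have hψ : ψ ∈ B := by
      by_contra hψ
      refine h0 ?_
      rw [acoef, classInner_eq, Finset.sum_eq_zero, mul_zero]
      intro x _
      rw [fpsi, NN_eq_zero hM hmax hnil x.2 hψ (isClassFunction (isCharacter_of_irr χ.2)), zero_mul]
    exact ⟨⟨ψ, hψ⟩, (support_injective hM hmax χ hnil hχ hmin hχZ h2 h0 (hne ⟨ψ, hψ⟩)).symm⟩
  refine ⟨Equiv.ofBijective Φ hbij, fun ψ => ?_⟩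
  obtain ⟨q, hq, hndvd, hdvd⟩ := fpsi_one_eq hM hmax χ hnil hχ hmin hχZ ψ.2
  obtain ⟨χ₁, hχ₁, hmin₁, hs⟩ := exists_min_degExp hM hnil.1
  rw [blockHeight_eq hs, show degExp p χ₁ = degExp p χ from le_antisymm (hmin₁ χ hχ) (hmin χ₁ hχ₁)]
  show _ = (charDegree ((Φ ψ : IrrCharacter P) : P → ℂ)).factorization p
  have habs : q.natAbs = charDegree ((Φ ψ : IrrCharacter P) : P → ℂ) := by
    have h := congrFun (hΦe ψ) 1
    rw [hq, Pi.smul_apply, smul_eq_mul, apply_one (isCharacter_of_irr (Φ ψ).2)] at h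
    have h' := congrArg norm h
    rw [norm_mul, hΦ1 ψ, one_mul, Complex.norm_intCast, Complex.norm_natCast, ← Int.cast_abs,
      ← Int.natCast_natAbs, Int.cast_natCast, Nat.cast_inj] at h'
    exact h'
  rw [← Int.natCast_pow, Int.natCast_dvd, habs] at hdvd hndvd
  have hpos := (charDegree_pos (Φ ψ).2).ne'
  have h1 := (hM.1.pow_dvd_iff_le_factorization hpos).1 hdvd
  have h2 : ¬ degExp p (ψ : IrrCharacter G) - degExp p χ + 1 ≤
      (charDegree ((Φ ψ : IrrCharacter P) : P → ℂ)).factorization p :=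
    fun h => hndvd ((hM.1.pow_dvd_iff_le_factorization hpos).2 h)
  omega

end CfsgLib.NilBlock
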